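import Cfsg.Agent.H06.J0
import Cfsg.Agent.L.Fz0
import Cfsg.Agent.H20.FtW

/-! Interface for `N(2¹¹) = 2¹¹ : M₂₄` in groups of Janko-four type (S5567), namespace `H23.K`. -/

set_option autoImplicit false
open Cfsg BG Subgroup H01.XS Cfsg.Agent.H06.J

namespace Cfsg.Agent.H23.K
universe u v

abbrev A6 := alternatingGroup (Fin 6)

/-- more facts on the hexad subgroup `K` of `M` -/
structure Hk {Γ : Type v} [Group Γ] (d : Γ) (M K Y : Subgroup Γ) : Prop where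
  hx : Hx d K Y
  KM : K ≤ M
  iK : K.relIndex M = 77
  oc : ∀ x ∈ M, x * x = 1 → ∃ g ∈ M, g * x * g⁻¹ ∈ Y
  nY : ∃ g ∈ M, ∃ y ∈ Y, g * y * g⁻¹ ∉ Y
  orb : ∃ g0 ∈ M, (K ⊓ cj g0 K).relIndex K = 16 ∧
    ∀ g ∈ M, g ∈ K ∨ (∃ k ∈ K, ∃ k' ∈ K, g = k * g0 * k') ∨ (K ⊓ cj g K).relIndex K = 60
  mx : ∀ J, K ≤ J → J ≤ M → J = K ∨ J = M
  ph : ∃ φ : K →* A6, Function.Surjective φ ∧ ∀ k : K, φ k = 1 ↔ ∃ y ∈ Y, ∃ i : ℕ, (k : Γ) = y * d ^ i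

section
variable {G : Type u} [Group G] [Finite G] {z : G} {Q : Subgroup G}
  {V : Type u} [AddCommGroup V] [Module (ZMod 2) V] [Finite V] {Γ : Type u} [Group Γ] [Finite Γ]
  {f : C_[z] →* Γ} {π : G → Γ} {ν : G → V} {T : Γ → V →+ V} {d : Γ} {M : Subgroup Γ} {β : V →+ V →+ ZMod 2} {q : V → ZMod 2}

/-- the data of S5566 -/
structure Cx (s : Bj z Q f π ν T d M β q) (K Y : Subgroup Γ) (B : AddSubgroup V) (A : Subgroup G) (δ : G) : Prop where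
  hk : Hk d M K Y
  dK : d ∈ ⁅K, K⁆
  pj : Pj T d K Y q B
  pi : Pi T Y B
  pu : Pu T M K Y β B
  Az : A ≤ C_[z]
  A2 : ∀ x ∈ A, x * x = 1
  cA : Nat.card A = 2048
  AY : ∀ x ∈ A, π x ∈ Y
  mA : ∀ x ∈ C_[z], π x ∈ Y → x ∈ C_(s.md.pull B) → x ∈ A
  u : ∀ P : Subgroup G, IsPGroup 2 P → H20.FtW.Un P
  δz : δ ∈ C_[z]
  δd : π δ = d
  δ3 : δ ^ 3 = 1
  ou : ∃ g, g ∉ M ∧ g * g = 1

/-- first consequences -/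
structure C2 (s : Bj z Q f π ν T d M β q) (Y : Subgroup Γ) (B : AddSubgroup V) (A : Subgroup G) (δ : G) : Prop where
  e3 : A ⊓ Q = s.md.pull B
  YA : ∀ y ∈ Y, ∃ c ∈ A, c ∈ C_[δ] ∧ π c = y
  fB : ∀ g, (∀ v ∈ B, T g v = v) → g ∈ Y
  cen : ∀ g, (∀ x ∈ A, g * x = x * g) → g ∈ A
  mN : ∀ x ∈ C_[z], x ∈ N_(A) ↔ ∀ v ∈ B, T (π x) v ∈ B
  cN : Nat.card ↥(N_(A) ⊓ C_[z]) = 2 ^ 21 * 135
  cz : ∀ c ∈ C_[z], c ∈ C_[δ] → ∀ r ∈ Q, T (π c) (ν r) = ν r → c * r * c⁻¹ = r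

/-- a complement to `Y` in the stabiliser of `B` -/
structure Sg (T : Γ → V →+ V) (d : Γ) (M K Y L : Subgroup Γ) (q : V → ZMod 2) (B B' : AddSubgroup V) : Prop where
  cB : Nat.card B' = 64
  dj : B ⊓ B' = ⊥
  qB : ∀ v ∈ B', q v = 0
  sB : ∀ g ∈ L, ∀ v ∈ B, T g v ∈ B
  sB' : ∀ g ∈ L, ∀ v ∈ B', T g v ∈ B'
  dL : d ∈ L
  LY : L ⊓ Y = ⊥
  cL : Nat.card L = 2160
  LK : L ⊓ M ≤ K
  cv : ∀ k ∈ K, ∃ l ∈ L, ∃ y ∈ Y, k = l * y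
  ou : ∃ l ∈ L, l ∉ M ∧ l * l = 1
end

/-- orbits of `N ⊓ C(z)` on `A` -/
structure Ob {G : Type u} [Group G] (A N B : Subgroup G) (z : G) (O1 O2 E F : Set G) : Prop where
  sq : ∀ x ∈ A, x * x = 1
  cA : Nat.card A = 2048
  AM : A ≤ N
  nM : ∀ m ∈ N, ∀ x ∈ A, m * x * m⁻¹ ∈ A
  cen : ∀ m ∈ N, (∀ x ∈ A, m * x = x * m) → m ∈ A
  z1 : z ≠ 1
  zB : z ∈ B
  BA : B ≤ A
  cB : Nat.card B = 128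
  nB : ∀ m ∈ N, m * z * m⁻¹ = z → ∀ x ∈ B, m * x * m⁻¹ ∈ B
  cQ : ∃ P ≤ N, IsPGroup 2 P ∧ ∀ x ∈ A, (∀ m ∈ P, m * x = x * m) → x = 1 ∨ x = z
  Bz : ∀ t ∈ B, t ≠ 1 → t ≠ z → ∃ m ∈ N, m * z * m⁻¹ = z ∧ m * t * m⁻¹ = t * z
  cN : Nat.card ↥(N ⊓ centralizer {z}) = 2 ^ 21 * 135
  pB : ∀ x, (x ∈ B ∧ x ≠ 1 ∧ x ≠ z) ↔ x ∈ O1 ∨ x ∈ O2
  c1 : O1.ncard = 36
  c2 : O2.ncard = 90
  t1 : ∀ x ∈ O1, ∀ y ∈ O1, ∃ m ∈ N, m * z * m⁻¹ = z ∧ m * x * m⁻¹ = y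
  t2 : ∀ x ∈ O2, ∀ y ∈ O2, ∃ m ∈ N, m * z * m⁻¹ = z ∧ m * x * m⁻¹ = y
  pA : ∀ x, (x ∈ A ∧ x ∉ B) ↔ x ∈ E ∨ x ∈ F
  cE : E.ncard = 480
  cF : F.ncard = 1440
  zE : ∀ x ∈ E, x * z ∈ E
  tE : ∀ x ∈ E, ∀ y ∈ E, ∃ m ∈ N, m * z * m⁻¹ = z ∧ (m * x * m⁻¹ = y ∨ m * x * m⁻¹ = y * z)
  tF : ∀ x ∈ F, ∀ y ∈ F, ∃ m ∈ N, m * z * m⁻¹ = z ∧ m * x * m⁻¹ = y
  Eco : ∀ x ∈ A, x ∉ B → ∃ e ∈ E, e * x ∈ B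
  fu : ∃ m ∈ N, m * z * m⁻¹ ≠ z
  nn : ¬ ∀ m ∈ N, ∀ x ∈ B, m * x * m⁻¹ ∈ B

abbrev DD {G : Type u} [Group G] (A N : Subgroup G) (z : G) : Set G := {t | t ∈ A ∧ t ≠ 1 ∧ ¬ ∃ m ∈ N, m * z * m⁻¹ = t}

def H2Stmt : Prop := ∃ K Y : Subgroup Spor.M22, Hk 1 ⊤ K Y

def L2Stmt : Prop := ∀ {Γ : Type u} [Group Γ] [Finite Γ] {d : Γ} {M : Subgroup Γ} (ρ : M →* Spor.M22)
  {K₀ Y₀ : Subgroup Spor.M22}, d * (d * d) = 1 → d ∈ M → (∀ g ∈ M, g * d = d * g) → d ∈ ⁅M, M⁆ → Function.Surjective ρ →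
  (∀ m : M, ρ m = 1 ↔ (m : Γ) ∈ zpowers d) → Hk 1 ⊤ K₀ Y₀ → ∃ K Y : Subgroup Γ, Hk d M K Y ∧ d ∈ ⁅K, K⁆

def B2Stmt : Prop := ∀ {G : Type u} [Group G] [Finite G] (z : G) (P : Subgroup G), IsOfJankoFourTypeWith z P →
  ∃ (Q : Subgroup G) (V : Type u) (_ : AddCommGroup V) (_ : Module (ZMod 2) V) (_ : Finite V) (Γ : Type u) (_ : Group Γ)
    (_ : Finite Γ) (f : C_[z] →* Γ) (π : G → Γ) (ν : G → V) (T : Γ → V →+ V) (d : Γ) (M : Subgroup Γ)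
    (β : V →+ V →+ ZMod 2) (q : V → ZMod 2), Bj z Q f π ν T d M β q ∧ d ∈ ⁅M, M⁆ ∧ (∃ g, g ∉ M ∧ g * g = 1) ∧
    ∃ ρ : M →* Spor.M22, Function.Surjective ρ ∧ ∀ m : M, ρ m = 1 ↔ (m : Γ) ∈ zpowers d

def UStmt : Prop := ∀ {G : Type u} [Group G] [Finite G],
  (∀ T : Sylow 2 G, ∃! V : Subgroup G, V ≤ (T : Subgroup G) ∧ IsElementaryAbelian 2 V ∧ Nat.card ↥V = 2 ^ 11) →
  ∀ P : Subgroup G, IsPGroup 2 P → H20.FtW.Un P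

def N89Stmt : Prop := ∀ {G : Type u} [Group G] [Finite G] {A N : Subgroup G}, (∀ x ∈ A, x * x = 1) → Nat.card A = 2048 → A ≤ N →
  (∀ m ∈ N, ∀ x ∈ A, m * x * m⁻¹ ∈ A) → (∀ m ∈ N, (∀ x ∈ A, m * x = x * m) → m ∈ A) → Nat.card N ≠ 2047 * (2 ^ 21 * 135)

def NStmt : Prop := ∀ {G : Type u} [Group G] [Finite G] {A N B : Subgroup G} {z : G} {O1 O2 E F : Set G},
  Ob A N B z O1 O2 E F → Nat.card N ≠ 2047 * (2 ^ 21 * 135) →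
  _root_.L.Fz.Cf A N B (DD A N z) z ∧ (∀ c ∈ E, c ∈ DD A N z ∨ c * z ∈ DD A N z) ∧ Nat.card N = 1771 * (2 ^ 21 * 135)

def IStmt : Prop := ∀ {G : Type u} [Group G] [Finite G] (X L : Subgroup G) (z l : G) (zX : z ∈ X) (ψ : X →* A6), X ≤ L →
  Nat.card X = 2160 → Nat.card L = 4320 → l ∈ L → l ∉ X → l * l = 1 → z ≠ 1 → z * z = 1 → (∀ x ∈ L, x * z = z * x) →
  Function.Surjective ψ → ψ ⟨z, zX⟩ = 1 → (∀ x : X, ψ x * ψ x = 1 → x ^ 6 = 1) →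
  ∃ L1 ≤ L, z ∉ L1 ∧ Nat.card L1 = 2160

def J1Stmt : Prop := ∀ {X : Type u} [Group X] [Finite X] (N P : Subgroup X) [N.Normal], Nonempty (X ⧸ N ≃* Cfsg.M24) →
  Nat.card (P.map (QuotientGroup.mk' N)) = 64 → (∀ p ∈ P, ∃ n ∈ N, p * n * (p * n) = 1) →
  ∀ x : X, x * x ∈ N → ∃ n ∈ N, x * n * (x * n) = 1

/-- statements about the full configuration -/
def All (p : ∀ {G : Type u} [Group G] [Finite G] {z : G} {Q : Subgroup G}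
    {V : Type u} [AddCommGroup V] [Module (ZMod 2) V] [Finite V] {Γ : Type u} [Group Γ] [Finite Γ]
    {f : C_[z] →* Γ} {π : G → Γ} {ν : G → V} {T : Γ → V →+ V} {d : Γ} {M : Subgroup Γ} {β : V →+ V →+ ZMod 2}
    {q : V → ZMod 2}, Bj z Q f π ν T d M β q → Subgroup Γ → Subgroup Γ → AddSubgroup V → Subgroup G → G → Prop) : Prop :=
  ∀ {G : Type u} [Group G] [Finite G] {z : G} {Q : Subgroup G}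
    {V : Type u} [AddCommGroup V] [Module (ZMod 2) V] [Finite V] {Γ : Type u} [Group Γ] [Finite Γ]
    {f : C_[z] →* Γ} {π : G → Γ} {ν : G → V} {T : Γ → V →+ V} {d : Γ} {M : Subgroup Γ} {β : V →+ V →+ ZMod 2}
    {q : V → ZMod 2} (s : Bj z Q f π ν T d M β q) (K Y : Subgroup Γ) (B : AddSubgroup V) (A : Subgroup G) (δ : G),
    Cx s K Y B A δ → p s K Y B A δ

def XStmt : Prop := All.{u} fun s _ Y B A δ => C2 s Y B A δ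

def GStmt : Prop := All.{u} fun {_ _ _ _ _ _ _ _ _ _ _ _ _ _ _ T _ _ _ _} _ _ Y _ _ _ =>
  ∀ y ∈ Y, y ≠ 1 → {v | T y v = v}.ncard = 256

def FStmt : Prop := All.{u} fun {G _ _ z _ _ _ _ _ _ _ _ _ _ _ _ _ _ _ _} s _ Y B A δ =>
  C2 s Y B A δ → IsSimpleGroup G → ¬ IsMulCommutative G → ∃ m ∈ N_(A), m * z * m⁻¹ ≠ z

def EStmt : Prop := All.{u} fun {_ _ _ z _ _ _ _ _ _ _ _ _ _ _ _ _ _ _ _} s _ Y B A δ =>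
  C2 s Y B A δ → (∀ m ∈ N_(A), ∀ x ∈ s.md.pull B, m * x * m⁻¹ ∈ s.md.pull B) → ∀ m ∈ N_(A), m * z * m⁻¹ = z

def OStmt : Prop := All.{u} fun {G _ _ z _ _ _ _ _ _ _ _ _ _ _ _ _ _ _ _} s _ Y B A δ =>
  C2 s Y B A δ → ∃ O1 O2 : Set G, (∀ x, (x ∈ s.md.pull B ∧ x ≠ 1 ∧ x ≠ z) ↔ x ∈ O1 ∨ x ∈ O2) ∧ O1.ncard = 36 ∧ O2.ncard = 90 ∧
    (∀ x ∈ O1, ∀ y ∈ O1, ∃ m ∈ N_(A), m * z * m⁻¹ = z ∧ m * x * m⁻¹ = y) ∧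
    ∀ x ∈ O2, ∀ y ∈ O2, ∃ m ∈ N_(A), m * z * m⁻¹ = z ∧ m * x * m⁻¹ = y

def CStmt : Prop := All.{u} fun {G _ _ z _ _ _ _ _ _ _ _ _ _ _ T _ _ _ _} s _ Y B A δ =>
  C2 s Y B A δ → (∀ y ∈ Y, y ≠ 1 → {v | T y v = v}.ncard = 256) →
  ∃ E F : Set G, (∀ x, (x ∈ A ∧ x ∉ s.md.pull B) ↔ x ∈ E ∨ x ∈ F) ∧ E.ncard = 480 ∧ F.ncard = 1440 ∧ (∀ x ∈ E, x * z ∈ E) ∧
    (∀ x ∈ E, ∀ y ∈ E, ∃ m ∈ N_(A), m * z * m⁻¹ = z ∧ (m * x * m⁻¹ = y ∨ m * x * m⁻¹ = y * z)) ∧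
    (∀ x ∈ F, ∀ y ∈ F, ∃ m ∈ N_(A), m * z * m⁻¹ = z ∧ m * x * m⁻¹ = y) ∧
    ∀ c ∈ A, c ∈ C_[δ] → c ∉ s.md.pull B → c ∈ E

def SStmt : Prop := All.{u} fun {_ _ _ _ _ _ _ _ _ _ _ _ _ _ _ T d M _ q} s K Y B A δ =>
  C2 s Y B A δ → ∃ L B', Sg T d M K Y L q B B'

def J2Stmt : Prop := All.{u} fun {_ _ _ z _ _ _ _ _ _ _ _ _ π _ _ _ M _ _} s _ Y B A δ =>
  C2 s Y B A δ → (∀ c ∈ A, c ∈ C_[δ] → ∀ m ∈ N_(A), m * c * m⁻¹ ≠ c * z) →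
  ∀ l ∈ C_[z], l ∈ N_(A) → l * δ * l⁻¹ = δ⁻¹ → π l ∉ M → π l * π l = 1 → (∃ a ∈ A, l * a * (l * a) = 1) → l * l = 1

def WStmt : Prop := All.{u} fun {_ _ _ z _ _ _ _ _ _ _ _ _ π _ T d M _ q} s K Y B A δ =>
  C2 s Y B A δ → IStmt.{u} → ∀ L B', Sg T d M K Y L q B B' →
  (∀ l ∈ C_[z], l ∈ N_(A) → l * δ * l⁻¹ = δ⁻¹ → π l ∉ M → π l * π l = 1 → l * l = 1) →
  ∃ D ≤ N_(A) ⊓ C_[z], D ⊓ A = ⊥ ∧ Nat.card D = 138240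

end Cfsg.Agent.H23.K
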