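import Cfsg.Agent.H23.K0

/-! Interface for S5569 (the second class of involutions in Janko-four type), namespace `H23.Y`. -/

set_option autoImplicit false
open Cfsg BG Subgroup H01.XS Cfsg.Agent.H06.J Cfsg.Agent.H23.K
open scoped Pointwise

namespace Cfsg.Agent.H23.Y
universe u

def MStmt : Prop := ∀ {V : Type u} [AddCommGroup V] [Module (ZMod 2) V] [Finite V] {Γ : Type u} [Group Γ] [Finite Γ]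
  {T : Γ → V →+ V} {d : Γ} {M K Y : Subgroup Γ} {β : V →+ V →+ ZMod 2} {q : V → ZMod 2} {B : AddSubgroup V},
  Gj T d M β q → Hx d K Y → K ≤ M → K.relIndex M = 77 → Pj T d K Y q B → Pi T Y B →
  (∃ a ∈ B, ∃ b ∈ B, a ≠ 0 ∧ b ≠ 0 ∧ ∀ g, T g a ≠ b) → ∀ v, q v = 0 → ∃ g, T g v ∈ B

def P2Stmt : Prop := ∀ {X : Type u} [Group X] [Finite X] (N P : Subgroup X) [N.Normal], Nonempty (X ⧸ N ≃* Cfsg.M24) →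
  Nat.card (P.map (QuotientGroup.mk' N)) = 64 → (∀ p ∈ P, p * p ∈ N) →
  ∀ x : X, x * x ∈ N → ∃ g, ∃ p ∈ P, ∃ n ∈ N, g * x * g⁻¹ = p * n

def P7Stmt : Prop := ∀ k : Cfsg.M24, k * k = 1 → (∃ p, k.1 p = p) → ∃ g : Cfsg.M24, g ≠ 1 ∧ g ^ 7 = 1 ∧ g * k = k * g

def AuStmt : Prop := Nonempty (↥(Cfsg.M24 ⊓ MulAction.stabilizer (Equiv.Perm Cfsg.GolayPt)
  ({none, some 0} : Set Cfsg.GolayPt)) ≃* MulAut ↥Cfsg.Spor.M22)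

def SgStmt : Prop := ∀ {G : Type u} [Group G] [Finite G] {A N B : Subgroup G} {D : Set G} {z t : G} {Ω : Type u}
  {τ : Ω → Ω → G} {σ : N →* Equiv.Perm Ω} (e : Ω ≃ Cfsg.GolayPt), P7Stmt → _root_.L.Fz.Cf A N B D z → _root_.L.Fz.Tr N D τ σ →
  (∀ m : N, e.permCongr (σ m) ∈ Cfsg.M24) → Nat.card N = 1771 * (2 ^ 21 * 135) → t ∈ N → t * t = 1 →
  12 < {x | x ∈ D ∧ t * x = x * t}.ncard → ∃ g ∈ N, g ∉ A ∧ g ^ 7 ∈ A ∧ t⁻¹ * (g * t * g⁻¹) ∈ A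

def PbStmt : Prop := ∀ {G : Type u} [Group G] [Finite G] {A N B W : Subgroup G} {D : Set G} {z t g : G} {Ω : Type u}
  {τ : Ω → Ω → G} {σ : N →* Equiv.Perm Ω}, _root_.L.Fz.Cf A N B D z → _root_.L.Fz.Tr N D τ σ → t ∈ N → t * t = 1 →
  Nat.card ↥(A ⊓ C_[t]) = 128 → W ≤ A ⊓ C_[t] → Nat.card W = 64 → g ∈ N → g ∉ A → g ^ 7 ∈ A → t⁻¹ * (g * t * g⁻¹) ∈ A →
  ∃ w ∈ W, g * w * g⁻¹ ∉ W

def PaStmt : Prop := All.{u} fun {G _ _ z Q _ _ _ _ _ _ _ _ π _ T _ _ _ _} s _ Y B A δ =>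
  C2 s Y B A δ → (∀ y ∈ Y, y ≠ 1 → {v | T y v = v}.ncard = 256) →
  ∀ t ∈ C_[z], t * t = 1 → π t ∈ Y → t ∉ Q → t ∉ A →
  Nat.card ↥(A ⊓ C_[t]) = 128 ∧ Nat.card ↥(s.md.pull B ⊓ C_[t]) = 64 ∧
  (∀ w ∈ s.md.pull B ⊓ C_[t], ∃ r ∈ N_(A), r * t * r⁻¹ = t * w) ∧ (∀ a ∈ A ⊓ C_[t], a ∉ s.md.pull B → t * a ∈ Q) ∧
  ∃ c ∈ A, c ∈ C_[δ] ∧ c ∉ s.md.pull B ∧ ∀ c' : G, c' = c ∨ c' = c * z →
    16 ≤ {x | t * x = x * t ∧ ∃ r ∈ Q, x = r * c' * r⁻¹}.ncard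

end Cfsg.Agent.H23.Y
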