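import Cfsg.Agent.H23.Y0

/-! Corrected part `Pb` of the interface for S5569. -/

set_option autoImplicit false
open Cfsg BG Subgroup

namespace Cfsg.Agent.H23.Y
universe u

def Pb2Stmt : Prop := ∀ {G : Type u} [Group G] [Finite G] {A N B W : Subgroup G} {D : Set G} {z t g : G} {Ω : Type u}
  {τ : Ω → Ω → G} {σ : N →* Equiv.Perm Ω}, _root_.L.Fz.Cf A N B D z → _root_.L.Fz.Tr N D τ σ → t ∈ N → t * t = 1 →
  Nat.card ↥(A ⊓ C_[t]) = 128 → W ≤ A ⊓ C_[t] → Nat.card W = 64 → (∀ a ∈ A, a * (t * a * t⁻¹) ∈ W) →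
  Nat.card ↥(N ⊓ C_[z]) = 2 ^ 21 * 135 → g ∈ N → g ∉ A → g ^ 7 ∈ A → t⁻¹ * (g * t * g⁻¹) ∈ A → ∃ w ∈ W, g * w * g⁻¹ ∉ W

end Cfsg.Agent.H23.Y
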