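import Mathlib

/-!
# An element of order three with quaternion commutator group (helper23)
-/

set_option autoImplicit false

namespace H23.CoY
open Subgroup

theorem q8 {G : Type*} [Group G] {Q : Subgroup G} {z x : G} (z2 : z * z = 1) (z1 : z ≠ 1) (zQ : z ∈ Q)
    (cz : ∀ q ∈ Q, z * q = q * z) (xz : z * x = x * z) (cm : ∀ a ∈ Q, ∀ b ∈ Q, a * b = b * a ∨ a * b = b * a * z)
    (s2 : ∀ a ∈ Q, a * a = 1 ∨ a * a = z) (nx : ∀ q ∈ Q, x * q * x⁻¹ ∈ Q) (x3 : x ^ 3 = 1)
    (c8 : Nat.card ↥⁅Q, zpowers x⁆ = 8) (na : ¬ IsMulCommutative ↥⁅Q, zpowers x⁆) :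
    ∃ i ∈ Q, ∃ j ∈ Q, i * i = z ∧ j * j = z ∧ j * i = i * j * z ∧ x * i * x⁻¹ = j ∧ x * j * x⁻¹ = i * j ∧
      (∀ r ∈ Q, r * x = x * r → r * i = i * r ∧ r * j = j * r) ∧
      ∀ P : Subgroup G, (∀ r ∈ Q, r * x = x * r → r ∈ P) → i ∈ P → j ∈ P → Q ≤ P := by
  classical
  obtain ⟨φ, hφ⟩ : ∃ φ : G ≃* G, ∀ a, φ a = x * a * x⁻¹ := ⟨MulAut.conj x, fun _ => rfl⟩
  have φz : φ z = z := by rw [hφ, ← xz, mul_inv_cancel_right]
  have φ3 : ∀ a, φ (φ (φ a)) = a := fun a => by
    calc _ = x ^ 3 * a * (x ^ 3)⁻¹ := by simp only [hφ, pow_succ, pow_zero, one_mul, mul_inv_rev, mul_assoc]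
      _ = a := by simp [x3]
  have fx : ∀ a, φ a ≠ a * z := fun a r => z1 (by
    have := φ3 a
    simp only [r, map_mul, φz, mul_assoc, z2, mul_one] at this
    simpa using this)
  have φc : ∀ {a}, φ a = a → a * x = x * a := fun r => by rw [hφ, mul_inv_eq_iff_eq_mul] at r; exact r.symm
  have φQ : ∀ q ∈ Q, φ q ∈ Q := fun q hq => hφ q ▸ nx q hq
  obtain ⟨S, hS⟩ : ∃ S, S = ⁅Q, zpowers x⁆ := ⟨_, rfl⟩
  have nQ : ∀ y ∈ zpowers x, ∀ q ∈ Q, y * q * y⁻¹ ∈ Q := fun y hy => by
    have hy' : y ∈ Submonoid.powers x := (isOfFinOrder_iff_pow_eq_one.2 ⟨3, by norm_num, x3⟩).mem_powers_iff_mem_zpowers.2 hy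
    obtain ⟨n, rfl⟩ := hy'
    clear hy
    induction n with
    | zero => simp
    | succ n ih => intro q hq; simpa [pow_succ, mul_assoc] using ih _ (nx q hq)
  have cy : ∀ {a}, a * x = x * a → ∀ y ∈ zpowers x, a * y = y * a := fun r y ⟨k, e⟩ => e ▸ (Commute.zpow_right r k).eq
  have SQ : S ≤ Q := hS ▸ commutator_le.2 fun q hq y hy => by
    simpa [commutatorElement_def, mul_assoc] using mul_mem hq (nQ y hy _ (inv_mem hq))
  have nS : ∀ s ∈ S, φ s ∈ S := fun s hs => (show S ≤ S.comap φ.toMonoidHom from hS ▸ commutator_le.2 fun q hq y hy => by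
    have : φ y = y := by rw [hφ, cy rfl y hy, mul_inv_cancel_right]
    simpa [this] using commutator_mem_commutator (φQ q hq) hy) hs
  have mS : ∀ q ∈ Q, φ q * q⁻¹ ∈ S := fun q hq => by
    rw [hS, commutator_comm, hφ]; exact commutator_mem_commutator (mem_zpowers x) hq
  have cS : ∀ r ∈ Q, r * x = x * r → ∀ s ∈ S, s * r = r * s := fun r hr e s hs =>
    mem_centralizer_singleton_iff.1 ((show S ≤ centralizer {r} from hS ▸ commutator_le.2 fun q hq y hy => by
      have a : y = r * y * r⁻¹ := by rw [cy e y hy, mul_inv_cancel_right]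
      rw [mem_centralizer_singleton_iff, eq_comm, ← mul_inv_eq_iff_eq_mul, conjugate_commutatorElement, ← a]
      rcases cm r hr q hq with c | c
      · rw [c, mul_inv_cancel_right]
      · rw [c, mul_assoc q, ← cz r hr, ← mul_assoc, mul_inv_cancel_right, commutatorElement_def, commutatorElement_def,
          mul_assoc q, cy xz y hy]; group) hs)
  rw [← hS] at c8 na
  have ab : (∀ a ∈ S, ∀ b ∈ S, a * b = b * a) → False := fun h => na ⟨⟨fun a b => Subtype.ext (h a a.2 b b.2)⟩⟩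
  have zS : z ∈ S := by_contra fun n => ab fun a ha b hb => (cm a (SQ ha) b (SQ hb)).resolve_right fun r => n (by
    simpa [r, mul_assoc] using mul_mem (inv_mem (mul_mem hb ha)) (mul_mem ha hb))
  obtain ⟨s, hs, ns⟩ : ∃ s ∈ S, φ s ≠ s := by
    by_contra r; push Not at r
    exact ab fun a ha b hb => cS b (SQ hb) (φc (r b hb)) a ha
  have s1 : s ≠ 1 := fun r => ns (by simp [r])
  have sz : s ≠ z := fun r => ns (by rw [r, φz])
  have zs := cz s (SQ hs)
  have zz : ∀ a, z * (z * a) = a := fun a => by rw [← mul_assoc, z2, one_mul]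
  have : Finite S := Nat.finite_of_card_ne_zero (by omega)
  have zst : ∀ a, s * (z * a) = z * (s * a) := fun a => by rw [← mul_assoc, ← zs, mul_assoc]
  obtain ⟨A, mA⟩ : ∃ A : Subgroup G, ∀ {a}, a ∈ A ↔ a = 1 ∨ a = z ∨ a = s ∨ a = z * s := by
    have zi : z⁻¹ = z := inv_eq_of_mul_eq_one_right z2
    have si : s⁻¹ = s ∨ s⁻¹ = z * s := (s2 s (SQ hs)).imp inv_eq_of_mul_eq_one_right fun r =>
      inv_eq_of_mul_eq_one_right (by rw [zst, r, z2])
    refine ⟨⟨⟨⟨{a | a = 1 ∨ a = z ∨ a = s ∨ a = z * s}, fun {a b} ha hb => ?_⟩, .inl rfl⟩, fun {a} ha => ?_⟩, Iff.rfl⟩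
    · rcases s2 s (SQ hs) with r | r <;> rcases ha with a | a | a | a <;> rcases hb with b | b | b | b <;>
        simp only [Set.mem_ofPred_eq, a, b, one_mul, mul_one, ← zs, mul_assoc, zz, z2, r, zst, true_or, or_true]
    · rcases si with r | r <;> rcases ha with a | a | a | a <;>
        simp only [Set.mem_ofPred_eq, a, inv_one, mul_inv_rev, zi, r, ← zs, mul_assoc, zz, true_or, or_true]
  have AS : A ≤ S := fun a ha => by rcases mA.1 ha with rfl | rfl | rfl | rfl <;> simp [zS, hs, mul_mem]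
  have cA : Nat.card A = 4 := by
    have a : z * s ≠ 1 := fun r => sz (by rw [← zz s, r, mul_one])
    have b : s ≠ z * s := fun r => z1 (by simpa using r)
    rw [← SetLike.coe_sort_coe, Nat.card_coe_set_eq, show (A : Set G) = ({1, z, s, z * s} : Finset G) from Set.ext fun _ => by simp [mA],
      Set.ncard_coe_finset]
    simp [Finset.card_insert_of_notMem, z1.symm, s1.symm, a.symm, sz.symm, s1, b]
  have ix : (A.subgroupOf S).index = 2 := by
    have := (A.subgroupOf S).index_mul_card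
    rw [Nat.card_congr (subgroupOfEquivOfLe AS).toEquiv, cA, c8] at this
    omega
  have i2 : ∀ a ∈ S, ∀ b ∈ S, a ∉ A → b ∉ A → a * b ∈ A := fun a ha b hb n m =>
    (mul_mem_iff_of_index_two ix (a := ⟨a, ha⟩) (b := ⟨b, hb⟩)).2 (iff_of_false n m)
  obtain ⟨t, ht⟩ : ∃ t, t = φ s := ⟨_, rfl⟩
  have tS : t ∈ S := ht ▸ nS s hs
  have zt := cz t (SQ tS)
  have tA : t ∉ A := fun r => by
    rcases mA.1 (ht ▸ r) with r | r | r | r
    exacts [s1 (by simpa using r), sz (φ.injective (r.trans φz.symm)), ns r, fx s (r.trans zs)]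
  have uA : φ t ∉ A := fun r => by
    have e : φ (φ t) = s := by rw [ht, φ3]
    rcases mA.1 r with r | r | r | r <;> rw [r] at e
    · exact s1 (by simpa using e.symm)
    · exact sz (e.symm.trans φz)
    · exact ns e
    · exact fx s (by rw [map_mul, φz, ← mul_right_inj z, zz] at e; rw [e, zs])
  have nt : φ t ≠ t := fun r => ns (φ.injective (ht ▸ r))
  have ti : t⁻¹ = t ∨ t⁻¹ = t * z := (s2 t (SQ tS)).imp inv_eq_of_mul_eq_one_right fun r =>
    inv_eq_of_mul_eq_one_right (by rw [← mul_assoc, r, z2])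
  have SP : ∀ P : Subgroup G, s ∈ P → t ∈ P → z ∈ P → S ≤ P := fun P a b c y hy => by
    have AP : A ≤ P := fun a ha => by rcases mA.1 ha with rfl | rfl | rfl | rfl <;> simp [*, mul_mem]
    by_cases r : y ∈ A
    · exact AP r
    · simpa using mul_mem (AP (i2 y hy t tS r tA)) (inv_mem b)
  have ts : t * s = s * t * z := (cm t (SQ tS) s (SQ hs)).resolve_left fun r => ab fun a ha b hb => by
    have := SP (centralizer {s} ⊓ centralizer {t}) (by simp [mem_centralizer_singleton_iff, r])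
      (by simp [mem_centralizer_singleton_iff, r]) (by simp [mem_centralizer_singleton_iff, zs, zt]) hb
    simp only [mem_inf, mem_centralizer_singleton_iff] at this
    exact mem_centralizer_singleton_iff.1 (SP (centralizer {b}) (mem_centralizer_singleton_iff.2 this.1.symm)
      (mem_centralizer_singleton_iff.2 this.2.symm) (mem_centralizer_singleton_iff.2 (cz b (SQ hb))) ha)
  have ztt : ∀ a, t * (z * a) = z * (t * a) := fun a => by rw [← mul_assoc, ← zt, mul_assoc]
  have u : φ t = s * t ∨ φ t = z * (s * t) := by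
    rcases mA.1 (i2 t tS _ (nS t tS) tA uA) with r | r | r | r <;> rw [← eq_inv_mul_iff_mul_eq] at r <;> rcases ti with q | q <;>
      rw [q] at r
    exacts [(nt (by simpa using r)).elim, (fx t (by simpa using r)).elim, (fx t r).elim, (nt (by simpa [mul_assoc, z2] using r)).elim,
      .inr (by simp only [r, ts, ← zt, mul_assoc, zst]), .inl (by simp only [r, ts, ← zt, mul_assoc, zst, zz]),
      .inl (by simp only [r, ts, ← zt, mul_assoc, zst, ztt, zz]), .inr (by simp only [r, ts, ← zt, mul_assoc, zst, ztt, zz])]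
  have f2 : φ (s * s) = s * s := by rcases s2 s (SQ hs) with r | r <;> simp [r, φz]
  have tt : t * t = s * s := by rw [ht, ← map_mul, f2]
  have ss : s * s = z := by
    have a : φ t * φ t = s * s := by rw [← map_mul, tt, f2]
    have b : s * t * (s * t) = z := by
      rw [mul_assoc, ← mul_assoc t, ts, mul_assoc, mul_assoc, ztt, tt, zst, zst, ← mul_assoc s s]
      rcases s2 s (SQ hs) with r | r <;> simp [r, z2]
    rcases u with r | r <;> rw [← a, r]
    · exact b
    · rw [mul_assoc, ← mul_assoc (s * t), ← cz _ (SQ (mul_mem hs tS)), mul_assoc, zz, b]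
  have fin : ∀ P : Subgroup G, (∀ r ∈ Q, r * x = x * r → r ∈ P) → s ∈ P → t ∈ P → Q ≤ P := fun P h a b q hq => by
    have SP' := SP P a b (h z zQ xz)
    have w : q * (φ q * φ (φ q)) ∈ P := h _ (mul_mem hq (mul_mem (φQ q hq) (φQ _ (φQ q hq)))) (φc (by
      rcases cm _ (mul_mem (φQ q hq) (φQ _ (φQ q hq))) q hq with r | r
      · simpa only [map_mul, φ3, mul_assoc] using r
      · exact (fx (q * (φ q * φ (φ q))) (by simpa only [map_mul, φ3, mul_assoc] using r)).elim))
    have m2 : φ (φ q) * q⁻¹ ∈ S := by simpa [mul_assoc] using mul_mem (nS _ (mS q hq)) (mS q hq)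
    have qq : q * q ∈ P := (s2 q hq).elim (· ▸ one_mem _) (· ▸ h z zQ xz)
    refine (P.mul_mem_cancel_right (x := φ q * φ (φ q)) ?_).1 w
    rcases cm q hq _ (SQ m2) with r | r
    · rw [show φ q * φ (φ q) = φ q * q⁻¹ * (q * (φ (φ q) * q⁻¹)) * q by group, r, mul_assoc, mul_assoc _ q]
      exact mul_mem (SP' (mS q hq)) (mul_mem (SP' m2) qq)
    · rw [show φ q * φ (φ q) = φ q * q⁻¹ * (q * (φ (φ q) * q⁻¹)) * q by group, r, mul_assoc, mul_assoc _ z, cz q hq, mul_assoc _ q,
        ← mul_assoc q]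
      exact mul_mem (SP' (mS q hq)) (mul_mem (SP' m2) (mul_mem qq (h z zQ xz)))
  rcases u with u | u
  · exact ⟨s, SQ hs, t, SQ tS, ss, tt.trans ss, ts, by rw [← hφ, ht], by rw [← hφ, u],
      fun r hr e => ⟨(cS r hr e s hs).symm, (cS r hr e t tS).symm⟩, fin⟩
  · refine ⟨z * s, SQ (mul_mem zS hs), z * t, SQ (mul_mem zS tS), by simp only [mul_assoc, zst, zz, ss],
      by simp only [mul_assoc, ztt, zz, tt, ss], by simp only [mul_assoc, zst, ztt, zz, ts], by rw [← hφ, map_mul, φz, ht],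
      by simp only [← hφ, map_mul, φz, u, mul_assoc, zst, zz],
      fun r hr e => ⟨(cS r hr e _ (mul_mem zS hs)).symm, (cS r hr e _ (mul_mem zS tS)).symm⟩, fun P h a b => fin P h ?_ ?_⟩
    exacts [(P.mul_mem_cancel_left (h z zQ xz)).1 a, (P.mul_mem_cancel_left (h z zQ xz)).1 b]

end H23.CoY
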