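import Mathlib
import Cfsg.Agent.H23.FP2
import Cfsg.Agent.H17.GlRepl

/-!
# Glauberman: failure of control of strong fusion by `ZJ(S)` (`H23.FP.main`)
-/

set_option autoImplicit false
open Cfsg BG Subgroup Matrix H17 H09
open scoped MatrixGroups commutatorElement

namespace H23.FP
universe u
variable {p : ℕ} [hp : Fact p.Prime] {G : Type u} [Group G] [Finite G]

theorem quad_elt (h2 : p ≠ 2) {P U B : Subgroup G} (hP : IsPGroup p P) (hB : B ≤ P) (hPB : P ≤ N_(B))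
    (hBB : ∀ A ∈ maxAb 0 P, ⁅B, B⁆ ≤ A) (hc : ∀ A ∈ maxAb 0 P, A ≤ U → B ≤ C_(A))
    (hJ : ¬ thompsonSubgroupOf 0 P ≤ U) : ∃ d ∈ P, d ∉ U ∧ d ∈ QD B := by
  rw [thompsonOf_le_iff] at hJ
  push Not at hJ
  obtain ⟨A, hA, hAU⟩ := hJ
  obtain ⟨A, hA, hAU, hn⟩ : ∃ A ∈ maxAb 0 P, ¬ A ≤ U ∧ B ≤ N_(A) := by
    by_cases e : B ≤ A
    · exact ⟨A, hA, hAU, e.trans (le_norm A)⟩
    obtain ⟨A', hA', -, h3, h4⟩ := exists_maxAb_normalized hP (Or.inr h2) (Or.inr rfl) le_rfl (le_norm P) hB hPB hA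
      (hBB A hA) e
    exact ⟨A', hA', fun h => h3 fun b hb => mem_of_commute_maxAb hA' (hB hb) (pow_zero b) (mem_cent.1 (hc A' hA' h hb)), h4⟩
  obtain ⟨d, hd, hdU⟩ := SetLike.not_le_iff_exists.1 hAU
  refine ⟨d, hA.1 hd, hdU, fun v hv => ?_⟩
  have := mul_comm_of_abelian hA.2.1.1 (mul_mem (inv_mem hd) (conj_mem_of_norm (hn hv) hd)) hd
  calc _ = d⁻¹ * (d⁻¹ * (v * d * v⁻¹) * d) := by group
    _ = _ := by rw [this]; group

theorem cent_of_chain {U Z : Subgroup G} (hZ : IsPGroup p Z) {x : G} (hx : (orderOf x).Coprime p) (hc : x ∈ C_(Z))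
    (h : ∀ u ∈ U, x * u * x⁻¹ * u⁻¹ ∈ Z) : x ∈ C_(U) := mem_cent.2 fun u hu => by
  obtain ⟨z, hz⟩ : ∃ z, z = x * u * x⁻¹ * u⁻¹ := ⟨_, rfl⟩
  have hzZ : z ∈ Z := hz ▸ h u hu
  have h1 : ∀ n : ℕ, x ^ n * u * (x ^ n)⁻¹ = z ^ n * u := fun n => by
    induction n with
    | zero => simp
    | succ n ih =>
      have := mem_cent.1 hc _ (pow_mem hzZ n)
      calc x ^ (n + 1) * u * (x ^ (n + 1))⁻¹ = x * (x ^ n * u * (x ^ n)⁻¹) * x⁻¹ := by group
        _ = z ^ n * (x * u * x⁻¹ * u⁻¹) * u := by rw [ih, ← mul_assoc, ← this]; group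
        _ = _ := by rw [← hz, pow_succ]
  have h2 := h1 (orderOf x)
  rw [pow_orderOf_eq_one, one_mul, inv_one, mul_one, eq_comm, mul_eq_right] at h2
  obtain ⟨k, hk⟩ := pg_card hp.out hZ
  have h3 : z = 1 := orderOf_eq_one_iff.1 (Nat.eq_one_of_dvd_coprimes (hx.pow_right k) (orderOf_dvd_of_pow_eq_one h2)
    (hk ▸ BG.orderOf_dvd_card hzZ))
  rw [h3, eq_comm, mul_inv_eq_one, mul_inv_eq_iff_eq_mul] at hz
  exact hz.symm

/-- the conclusion of the theorem -/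
def Concl (p : ℕ) [Fact p.Prime] {G : Type u} [Group G] (Z : Subgroup G) : Prop :=
  Sec (fOver (ZMod p)) N_(Z) ∧ ∃ x ∈ Z, orderOf x = p ∧ ∃ h ∈ N_(Z), ∃ l : ℕ, orderOf (l : ZMod p) = p - 1 ∧
    h * x * h⁻¹ = x ^ l

theorem concl_of_cert {Z V : Subgroup G} (h2 : p ≠ 2) (hZ : IsMulCommutative Z) (hV : IsPGroup p V) (hVH : V ≤ N_(Z))
    (σ : G → Fin 2 → ZMod p) {y : G} (hy : y ∈ Z) (hyV : y ∈ V) (hadd : ∀ a ∈ V, ∀ b ∈ V, σ (a * b) = σ a + σ b)
    (h1 : σ y 1 = 0) (h0 : σ y 0 ≠ 0) (hs : ∀ w, ∃ v ∈ V, σ v = w)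
    (hB : ∀ s : SL(2, ZMod p), s 1 0 = 0 → ∃ g ∈ N_(Z), g ∈ N_(V) ∧
      ∀ x ∈ V, σ (g * x * g⁻¹) = (s : Matrix (Fin 2) (Fin 2) (ZMod p)) *ᵥ σ x) : Concl p Z := by
  refine ⟨sec_f h2 hV hVH σ hadd hs hB, ?_⟩
  obtain ⟨c, hc⟩ := IsCyclic.exists_ofOrder_eq_natCard (α := (ZMod p)ˣ)
  rw [Nat.card_eq_fintype_card, ZMod.card_units, ← orderOf_units] at hc
  obtain ⟨c', hc'⟩ : ∃ c', c' = (c : ZMod p) := ⟨_, rfl⟩
  have hc0 : c' ≠ 0 := hc' ▸ c.ne_zero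
  rw [← hc'] at hc
  obtain ⟨h, hh, hh', e⟩ := hB (sl2 c' 0 0 c'⁻¹ (by field_simp; ring)) rfl
  have hz : σ 1 = 0 := by simpa using hadd 1 (one_mem _) 1 (one_mem _)
  let E : Subgroup G :=
    { carrier := {x | x ∈ Z ⊓ V ∧ σ x 1 = 0}
      one_mem' := ⟨one_mem _, by simp [hz]⟩
      mul_mem' := fun {a b} ha hb => ⟨mul_mem ha.1 hb.1, by simp [hadd a ha.1.2 b hb.1.2, ha.2, hb.2]⟩
      inv_mem' := fun {a} ha => ⟨inv_mem ha.1, by
        simpa [hz, ha.2] using (congrFun (hadd a ha.1.2 _ (inv_mem ha.1.2)) 1).symm⟩ }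
  have hn : h ∈ N_(E) := mem_norm_of_cj_le fun x hx => by
    obtain ⟨a, ha, rfl⟩ := mem_cj'.1 hx
    refine ⟨⟨conj_mem_of_norm hh ha.1.1, conj_mem_of_norm hh' ha.1.2⟩, ?_⟩
    simp [e a ha.1.2, Matrix.mulVec, dotProduct, Fin.sum_univ_two, ha.2]
  obtain ⟨x, hx, h3, h4⟩ := eigen (E := E) (abelian_of_le hZ fun _ h => h.1.1) (pg_le hV fun _ h => h.1.2) hn (fun x => σ x 0)
    (fun a ha b hb => congrFun (hadd a ha.1.2 b hb.1.2) 0) (y := y) ⟨⟨hy, hyV⟩, h1⟩ h0 c'.val (fun a ha => by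
      simp [e a ha.1.2, Matrix.mulVec, dotProduct, Fin.sum_univ_two])
  exact ⟨x, hx.1.1, h3, h, hh, _, by rwa [ZMod.natCast_zmod_val], h4⟩

theorem step (h2 : p ≠ 2) {S : Subgroup G} (hS : IsSylowIn p S ⊤)
    (ih : ∀ K, S ≤ K → K ≠ ⊤ → ∀ P ≤ S, ∀ g ∈ K, cj g P ≤ S → Ind N_(centerThompsonOf 0 S) P g)
    {P : Subgroup G} {g : G} (hP : P ≤ S) (hg : cj g P ≤ S) (hb : ¬ Ind N_(centerThompsonOf 0 S) P g) :
    Concl p (centerThompsonOf 0 S) := by
  have hSp := IsSylowIn.pg hS hp.out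
  obtain ⟨Z, hZ⟩ : ∃ Z, Z = centerThompsonOf 0 S := ⟨_, rfl⟩
  rw [← hZ] at ih hb ⊢
  have hZS : Z ≤ S := hZ ▸ centerThompsonOf_le 0 S
  have hZc : IsMulCommutative Z := hZ ▸ centerThompsonOf_comm 0 S
  have hNS : N_(S) ≤ N_(Z) := hZ ▸ normalizer_le_normalizer_centerThompsonOf 0 S
  have hSH : S ≤ N_(Z) := (le_norm S).trans hNS
  have hZ0 : Z.normalCore ≤ Z := normalCore_le Z
  obtain ⟨q, hq⟩ : ∃ q, q = QuotientGroup.mk' Z.normalCore := ⟨_, rfl⟩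
  have hker : q.ker = Z.normalCore := hq ▸ QuotientGroup.ker_mk' _
  have hqe : ∀ {a b}, q a = q b ↔ a * b⁻¹ ∈ Z.normalCore := by
    intro a b; rw [← SetLike.ext_iff.1 hker, MonoidHom.mem_ker, map_mul, map_inv, mul_inv_eq_one]
  have mn : ∀ {A B : Subgroup G}, A ≤ N_(B) → A.map q ≤ N_(B.map q) := fun h => (map_mono h).trans (le_normalizer_map q)
  have cn : ∀ {A : Subgroup G} {B : Subgroup (G ⧸ Z.normalCore)}, A.map q ≤ N_(B) → A ≤ N_(B.comap q) := fun h =>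
    (map_le_iff_le_comap.1 h).trans (le_normalizer_comap q)
  have cm : ∀ {A : Subgroup G}, Z.normalCore ≤ A → (A.map q).comap q = A := fun h => comap_map_eq_self (hker.le.trans h)
  obtain ⟨y, hy, hyS, hyp⟩ : ∃ y ∈ Z, S ≤ C_[q y].comap q ∧ orderOf (q y) = p := by
    have h1 : Z.map q ≠ ⊥ := fun h => hb (Ind.of_mem (by
      rw [Subgroup.map_eq_bot_iff, hker] at h
      rw [le_antisymm h hZ0, normalizer_eq_top]; trivial))
    obtain ⟨_, ⟨⟨y, hy, rfl⟩, h3⟩, h4⟩ := exists_orderOf_eq_prime hp.out (pg_dvd hp.out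
      (pg_le ((pg_le hSp hZS).map q) inf_le_left) (pg_fix_ne_bot hp.out (hSp.map q) ((pg_le hSp hZS).map q) (mn hSH) h1))
    exact ⟨y, hy, map_le_iff_le_comap.1 (le_cent1_iff.2 h3), h4⟩
  have hK : C_[q y].comap q ≠ ⊤ := fun h => by
    have : y ∈ Z.normalCore := fun b => by
      have h1 : q (b * y * b⁻¹) = q y := by
        rw [map_mul, map_mul, mem_cent1.1 (show b ∈ C_[q y].comap q from h ▸ mem_top b), map_inv, mul_inv_cancel_right]
      simpa using mul_mem (hZ0 (hqe.1 h1)) hy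
    rw [← hker, MonoidHom.mem_ker] at this
    rw [this, orderOf_one] at hyp
    exact hp.out.one_lt.ne hyp
  obtain ⟨U, hUS, hT, hne, F⟩ := exists_bad hp.out hS hNS hP hg hb
  obtain ⟨T, hTe⟩ : ∃ T, T = S ⊓ N_(U) := ⟨_, rfl⟩
  obtain ⟨M, hM⟩ : ∃ M, M = indSub N_(Z) U := ⟨_, rfl⟩
  rw [← hTe] at hT F
  rw [← hM] at hne
  have mM : ∀ {x}, x ∈ N_(U) → Ind N_(Z) U x → x ∈ M := fun h1 h2 => hM ▸ ⟨h1, h2⟩
  have hMX : M ≤ N_(U) := fun x hx => (hM ▸ hx : x ∈ indSub N_(Z) U).1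
  have hTS : T ≤ S := hTe ▸ inf_le_left
  have hUT : U ≤ T := hTe ▸ le_inf hUS (le_norm U)
  have hTM : T ≤ M := fun x hx => mM (hT.le hx) (Ind.of_mem (hSH (hTS hx)))
  have F' : ∀ D, U ≤ D → D ≤ T → T ≤ N_(D) → ¬ D ≤ U → N_(U) ⊓ N_(D) ≤ M := fun D h1 h3 h4 h5 x hx =>
    mM hx.1 ((F D (h3.trans hTS) (Or.inr ⟨BG.card_le (le_inf hTS h4), card_lt (lt_of_le_not_ge h1 h5)⟩) x hx.2).mono h1)
  have P1 : ∀ C, N_(U) ≤ N_(C) → C ≤ M → T ⊓ C ≤ U := fun C h1 h3 => by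
    have h4 : U ⊔ C ≤ M := sup_le (hUT.trans hTM) h3
    have h5 := norm_sup le_rfl h1
    by_contra e
    exact hne ((sylow_frattini hp.out (hT.inf_normal (h4.trans hMX) h5) (h4.trans hMX) h5).ge.trans (sup_le h4
      (F' _ (le_inf hUT le_sup_left) inf_le_left (le_norm_inf (hT.le.trans h5))
        fun h => e ((inf_le_inf_left T le_sup_right).trans h))))
  have hZU : Z.normalCore ≤ U := by
    have h1 : N_(U) ⊓ Z.normalCore ≤ T := hTe ▸ le_inf (inf_le_right.trans (hZ0.trans hZS)) inf_le_left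
    have h3 := P1 _ (le_norm_inf le_normalizer_of_normal) (h1.trans hTM)
    refine le_sup_right.trans (nil_eq_of_norm_le (pg_nil hp.out (pg_le hSp (sup_le hUS (hZ0.trans hZS)))) le_sup_left ?_).ge
    rw [inf_comm, dedekind (le_norm U) (Or.inr le_normalizer_of_normal)]
    exact sup_le le_rfl ((le_inf h1 le_rfl).trans h3)
  have hyc : y ∈ C_(U.map q).comap q := mem_comap.2 (le_cent1_iff.1 (map_le_iff_le_comap.2 (hUS.trans hyS)))
  have hcc : ∀ x ∈ C_(U.map q).comap q, ∀ u ∈ U, x * u * x⁻¹ * u⁻¹ ∈ Z.normalCore := fun x hx u hu => hqe.1 (by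
    rw [map_mul, map_mul, ← mem_cent.1 hx _ (mem_map_of_mem q hu), map_inv, mul_inv_cancel_right])
  have hyZ : y ∈ C_(Z.normalCore) := le_cent_of_abelian hZc le_rfl hZ0 hy
  have hXC : N_(U) ≤ N_(C_(U.map q).comap q ⊓ C_(Z.normalCore)) :=
    norm_inf (cn (norm_cent (mn le_rfl))) (norm_cent le_normalizer_of_normal)
  have hyU : y ∈ U := by
    have h1 : y ∈ N_(U) := mem_norm_of_cj_le fun x hx => by
      obtain ⟨u, hu, rfl⟩ := mem_cj'.1 hx
      simpa using mul_mem (hZU (hcc y hyc u hu)) hu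
    refine P1 _ (le_norm_inf hXC) (le_of_coprime (hT.inf_normal inf_le_left (le_norm_inf hXC)) (inf_le_left.trans hTM)
      fun x hx hc => mM hx.1 (Ind.of_cent (cent_of_chain (pg_le hSp (hZ0.trans hZS)) hc hx.2.2 (hcc x hx.2.1))))
      ⟨hTe ▸ ⟨hZS hy, h1⟩, h1, hyc, hyZ⟩
  obtain ⟨B, hB⟩ : ∃ B, B = closure {x | ∃ g ∈ N_(U), x = g * y * g⁻¹} := ⟨_, rfl⟩
  have hBle : ∀ L, N_(U) ≤ N_(L) → y ∈ L → B ≤ L := fun L h1 h3 => hB ▸ (closure_le _).2 (by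
    rintro _ ⟨g, hg, rfl⟩; exact conj_mem_of_norm (h1 hg) h3)
  have hm : ∀ g ∈ N_(U), g * y * g⁻¹ ∈ B := fun g hg => hB ▸ subset_closure ⟨g, hg, rfl⟩
  have hyB : y ∈ B := by simpa using hm 1 (one_mem _)
  have hXB : N_(U) ≤ N_(B) := fun g hg => mem_norm_of_cj_le (cj_le_iff.2 (hB.le.trans ((closure_le _).2 (by
    rintro _ ⟨a, ha, rfl⟩
    have := hm _ (mul_mem hg ha)
    exact mem_cj_inv.2 (by simpa [mul_assoc] using this)))))
  have hBU : B ≤ U := hBle U le_rfl hyU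
  have hE := omegaOne_elemAb (n := p) (abelian_center (U.map q))
  have hBE : B.map q ≤ omegaOne p (U.map q ⊓ C_(U.map q)) := map_le_iff_le_comap.2 (hBle _ (cn ((norm_inf (mn le_rfl)
    (norm_cent (mn le_rfl))).trans (normalizer_le_normalizer_omegaOne p _)))
    (mem_omegaOne ⟨mem_map_of_mem q hyU, hyc⟩ (hyp ▸ pow_orderOf_eq_one _)))
  have hBC : B.map q ≤ C_(U.map q) := hBE.trans ((omegaOne_le _ _).trans inf_le_right)
  have hBc : IsMulCommutative (B.map q) := abelian_iff.2 (le_cent_mono hBC le_rfl (map_mono hBU))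
  have hBB : ⁅B, B⁆ ≤ Z.normalCore := LE.le.trans (by
    rw [← Subgroup.map_eq_bot_iff, map_commutator]; exact abelian_iff_der.1 hBc) hker.le
  have hKM : ∀ h ∈ N_(Z), ∀ c ∈ C_[q y].comap q, h * c ∈ N_(U) → h * c ∈ M := fun h hh c hc e =>
    mM e (Ind.of_mul hp.out hS hSH hyS (ih _ hyS hK) hUS hh hc (by rwa [cj_of_mem_norm e]))
  obtain ⟨d, hdT, hdU, hd⟩ : ∃ d ∈ T, d ∉ U ∧ q d ∈ QD (B.map q) := by
    by_cases e : T = S
    · obtain ⟨d, h1, h3, h4⟩ := quad_elt (U := U) h2 hSp (hBU.trans hUS) (e ▸ hT.le.trans hXB) (fun A hA => by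
        have := omegaOne_centerThompsonOf_le hA
        rw [omegaOne_zero, ← hZ] at this
        exact hBB.trans (hZ0.trans this)) (fun A hA hAU => (hBle _ (norm_cent (normalizer_le_normalizer_thompsonOf 0 U))
          (cent_anti (thompsonOf_mono hA hAU hUS) (hZ ▸ hy : y ∈ centerThompsonOf 0 S).2)).trans
          (cent_anti (le_thompsonOf (maxAb_of_le hA hAU hUS)))) (fun h => hne fun x hx => mM hx (Ind.of_mem (by
            have := normalizer_le_normalizer_centerThompsonOf 0 U hx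
            rwa [centerThompsonOf_eq_of_le h hUS, ← hZ] at this)))
      refine ⟨d, e ▸ h1, h3, ?_⟩
      rintro _ ⟨v, hv, rfl⟩
      simpa using congrArg q (h4 v hv)
    obtain ⟨_, ⟨d, h1, rfl⟩, h3, h4⟩ := quad_elt (U := U.map q) h2 ((pg_le hSp hTS).map q) (map_mono (hBU.trans hUT))
      (mn (hT.le.trans hXB)) (fun A _ => (abelian_iff_der.1 hBc).le.trans bot_le)
      (fun A _ hA => hBC.trans (cent_anti hA)) (fun h => hne fun x hx => by
        have h3 : (thompsonSubgroupOf 0 (T.map q)).comap q ≤ T := (comap_mono (thompsonOf_le 0 _)).trans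
          (cm (hZU.trans hUT)).le
        have h4 : N_(T) ≤ N_((thompsonSubgroupOf 0 (T.map q)).comap q) :=
          cn ((mn le_rfl).trans (normalizer_le_normalizer_thompsonOf 0 _))
        have h5 : N_(U) ≤ N_((thompsonSubgroupOf 0 (T.map q)).comap q) := by
          rw [← thompsonOf_eq_of_le h (map_mono hUT)]
          exact cn ((mn le_rfl).trans (normalizer_le_normalizer_thompsonOf 0 _))
        obtain ⟨k, hk, h6⟩ := F _ (h3.trans hTS) (Or.inl ((card_lt (nil_lt_norm (pg_nil hp.out hSp)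
          (lt_of_le_of_ne hTS e))).trans_le (BG.card_le (inf_le_inf_left S h4)))) x (h5 hx)
        obtain ⟨A, hA⟩ := maxAb_nonempty 0 (T.map q)
        have h7 := h6 y (le_thompsonOf hA (mem_of_commute_maxAb hA (mem_map_of_mem q (hUT hyU)) (pow_zero _)
          fun a ha => mem_cent1.1 (map_le_iff_le_comap.2 (hTS.trans hyS) (hA.1 ha))))
        have := hKM k hk (k⁻¹ * x) (mem_comap.2 (mem_cent1.2 (by
          rw [← map_mul, ← map_mul, show k⁻¹ * x * y = k⁻¹ * (x * y * x⁻¹) * x by group, h7]; congr 1; group)))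
        rw [mul_inv_cancel_left] at this
        exact this hx)
    exact ⟨d, h1, fun h => h3 (mem_map_of_mem q h), h4⟩
  obtain ⟨V, hVB, σ, hyV, hadd, h1, h0, hs, hs'⟩ := cert h2 (BG.Cfsg.IsPiHallOf.map hT q) (map_mono hTM) (map_mono hMX)
    (fun h => hne (map_le_iff_le_comap.1 h |>.trans (cm (hZU.trans (hUT.trans hTM))).le)) (mn hXB) hBc
    (fun b hb => hE.2 b (hBE hb)) (mem_map_of_mem q hyB) (map_le_iff_le_comap.2 (hTS.trans hyS)) (by
      rintro _ ⟨⟨x, hx, rfl⟩, h⟩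
      exact mem_map_of_mem q (by simpa using hKM 1 (one_mem _) x h (by simpa using hx))) (by
      rintro _ ⟨⟨x, hx, rfl⟩, h⟩
      have h3 : closure (QD (B.map q) ∩ T.map q) ≤ T.map q := (closure_le _).2 fun _ h => h.2
      refine mem_map_of_mem q (F' ((closure (QD (B.map q) ∩ T.map q)).comap q) (fun u hu => subset_closure ⟨fun v hv => ?_,
        mem_map_of_mem q (hUT hu)⟩) ((comap_mono h3).trans (cm (hZU.trans hUT)).le) (cn fun t ht => mem_norm_of_cj_le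
        (cj_le_iff.2 ((closure_le _).2 fun a ha => mem_cj_inv.2 (subset_closure ⟨QD.conj (mn (hT.le.trans hXB) ht) ha.1,
          mul_mem (mul_mem ht ha.2) (inv_mem ht)⟩))))
        (fun h => hdU (h (subset_closure ⟨hd, mem_map_of_mem q hdT⟩))) ⟨hx, le_normalizer_comap q h⟩)
      rw [mul_assoc (q u)⁻¹ v, ← mem_cent.1 (hBC hv) _ (mem_map_of_mem q hu)]; group)
  have hVU : V.comap q ≤ U := (comap_mono (hVB.trans (map_mono hBU))).trans (cm hZU).le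
  refine concl_of_cert h2 hZc (pg_le hSp (hVU.trans hUS)) (hVU.trans (hUS.trans hSH)) (fun x => σ (q x)) hy hyV
    (fun a ha b hb => by rw [map_mul, hadd _ ha _ hb]) h1 h0 (fun w => ?_) fun s h => ?_
  · obtain ⟨v, hv, e⟩ := hs w
    obtain ⟨a, -, rfl⟩ := hVB hv
    exact ⟨a, hv, e⟩
  · obtain ⟨_, ⟨x, hx, rfl⟩, h3, h4⟩ := hs' s h
    obtain ⟨k, hk, e⟩ := (hM ▸ hx : x ∈ indSub N_(Z) U).2
    refine ⟨k, hk, mem_norm_of_cj_le fun z hz => ?_, fun v hv => by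
      rw [← e v (hVU hv), map_mul, map_mul, map_inv, h4 _ hv]⟩
    obtain ⟨v, hv, rfl⟩ := mem_cj'.1 hz
    rw [← e v (hVU hv)]
    exact conj_mem_of_norm (le_normalizer_comap q h3) hv

theorem main (h2 : p ≠ 2) : ∀ (n : ℕ) (G : Type u) [Group G] [Finite G], Nat.card G = n → ∀ S : Subgroup G,
    IsSylowIn p S ⊤ → ¬ Concl p (centerThompsonOf 0 S) → ∀ P ≤ S, ∀ g, cj g P ≤ S → Ind N_(centerThompsonOf 0 S) P g := by
  intro n
  induction n using Nat.strong_induction_on with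
  | _ n ih =>
  intro G _ _ hn S hS hc P hP g hg
  by_contra hb
  refine hc (step h2 hS (fun K hK hK' P hP g hg e => ?_) hP hg hb)
  obtain ⟨S', hS'⟩ := IsSylowIn.exists_sylow (hS.sub hK le_top) hp.out
  have h1 : (centerThompsonOf 0 (S' : Subgroup K)).map K.subtype = centerThompsonOf 0 S := by
    rw [← hS', centerThompsonOf_map _ K.subtype_injective.injOn]
  have h3 : ∀ x ∈ N_(centerThompsonOf 0 (S' : Subgroup K)), (x : G) ∈ N_(centerThompsonOf 0 S) := fun x hx =>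
    h1 ▸ le_normalizer_map _ (mem_map_of_mem _ hx)
  have h4 : (S' : Subgroup K) = S.subgroupOf K := by rw [← hS']; exact (comap_map_eq_self_of_injective K.subtype_injective _).symm
  obtain ⟨h, hh, e'⟩ := ih _ (hn ▸ by simpa using card_lt (lt_top_iff_ne_top.2 hK')) K rfl _ (isSylowIn_top hp.out S')
    (fun ⟨c1, x, hx, c2, h, hh, l, c3, c4⟩ => hc ⟨c1.of_injective ((K.subtype.comp (Subgroup.subtype _)).codRestrict _
      fun x => h3 x x.2) fun a b e => Subtype.ext (Subtype.ext (congrArg (fun z : N_(centerThompsonOf 0 S) => (z : G)) e)), x, h1 ▸ mem_map_of_mem _ hx,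
      by rwa [Subgroup.orderOf_coe], h, h3 h hh, l, c3, congrArg Subtype.val c4⟩) (P.subgroupOf K)
    (h4 ▸ comap_mono hP) ⟨g, hg⟩ (h4 ▸ fun x hx => e (mem_cj.2 (mem_cj (G := K).1 hx)))
  exact ⟨h, h3 h hh, fun a ha => congrArg Subtype.val (e' ⟨a, hK (hP ha)⟩ ha)⟩

end H23.FP
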