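import Mathlib
import Cfsg.Agent.H23.GW7
import Cfsg.Agent.H08.GWKL2
import Cfsg.Agent.H08.GWKA

/-!
# Gorenstein-Walter theorem: the induction

`isL_of hN` : granted that there is no minimal counterexample (`NoCtx`), a perfect simple group with `DS` is `L₂(q)` or `A₇`.
-/

set_option autoImplicit false
open Cfsg BG Subgroup H22

namespace H23.GW
universe u
variable {G : Type u} [Group G] [Finite G]

/-- there is no minimal counterexample -/
def NoCtx : Prop := ∀ (G : Type u) [Group G] [Finite G] [IsSimpleGroup G], ¬ Ctx G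

omit [Finite G] in
theorem perf_top {L : Subgroup G} (h : ⁅L, L⁆ = L) : ⁅(⊤ : Subgroup L), (⊤ : Subgroup L)⁆ = ⊤ :=
  map_injective L.subtype_injective (by rw [map_commutator, ← MonoidHom.range_eq_map, range_subtype, h])

omit [Finite G] in
theorem noI2_top (h : ⁅(⊤ : Subgroup G), (⊤ : Subgroup G)⁆ = ⊤) : NoI2 G := fun H e =>
  noI2_of_perf h (H.subgroupOf ⊤) (by rw [← relIndex, relIndex_top_right, e])

theorem isL_aux (hN : NoCtx.{u}) (n : ℕ) : ∀ (G : Type u) [Group G] [Finite G] [IsSimpleGroup G], Nat.card G = n → DS G →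
    ⁅(⊤ : Subgroup G), (⊤ : Subgroup G)⁆ = ⊤ → IsL G := by
  induction n using Nat.strong_induction_on with
  | _ n ih =>
    intro G _ _ _ hn hD hp
    by_contra h0
    obtain ⟨a, -, b, -, hF⟩ := hD.exists_four hp top_ne_bot
    refine hN G ⟨hD, noI2_top hp, ⟨a, b, hF⟩, fun X hX => tri_of H08.gw_kl H08.gw_ka (hD.sub X).quot oo_quot
      fun L _ hL => ih _ ?_ L rfl ((hD.sub X).quot.sub L) (perf_top hL), h0⟩
    rw [← hn, ← card_top (G := G)]
    exact ((Nat.le_of_dvd Nat.card_pos ((card_dvd_top L).trans (card_quotient_dvd_card _))).trans_lt (card_lt hX.lt_top))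

theorem isL_of (hN : NoCtx.{u}) [IsSimpleGroup G] (hD : DS G) (hp : ⁅(⊤ : Subgroup G), (⊤ : Subgroup G)⁆ = ⊤) : IsL G :=
  isL_aux hN _ G rfl hD hp

theorem tri_all (hN : NoCtx.{u}) (hD : DS G) (hO : oo (⊤ : Subgroup G) = ⊥) : Tri G :=
  tri_of H08.gw_kl H08.gw_ka hD hO fun L _ hL => isL_of hN (hD.sub L) (perf_top hL)

omit [Finite G] in
theorem IsL.of_equiv {G' : Type u} [Group G'] (h : IsL G) (e : G' ≃* G) : IsL G' :=
  h.imp (fun ⟨F, _, _, h1, h2, ⟨f⟩⟩ => ⟨F, _, _, h1, h2, ⟨e.trans f⟩⟩) fun ⟨f⟩ => ⟨e.trans f⟩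

theorem simple_of_perf (hN : NoCtx.{u}) (hD : DS G) (hO : oo (⊤ : Subgroup G) = ⊥)
    (hp : ⁅(⊤ : Subgroup G), (⊤ : Subgroup G)⁆ = ⊤) (h0 : (⊤ : Subgroup G) ≠ ⊥) : IsSimpleGroup G := by
  rcases tri_all hN hD hO with h | ⟨L, -, hs, -, -, h⟩
  · exfalso
    obtain ⟨a, -, b, -, hF⟩ := hD.exists_four hp h0
    have hQ := pcore_pg Nat.prime_two (⊤ : Subgroup G)
    have hn := le_norm_pcore {2} (⊤ : Subgroup G)
    obtain ⟨z, hz, h2⟩ := exists_orderOf_eq_prime Nat.prime_two (pg_dvd Nat.prime_two hQ fun e => h0 (by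
      rw [e, cent_bot] at h; exact le_bot_iff.1 h))
    have h1 : ∀ w : G, orderOf w = 2 → w ∈ piCoreOf {2} (⊤ : Subgroup G) := fun w hw => by
      obtain ⟨g, rfl⟩ := hD.conj (noI2_top hp) hF h2 hw
      exact conj_mem_of_norm (hn (mem_top g)) hz
    obtain ⟨P, σ, m, hd⟩ := hD.exists_dih (noI2_top hp) hF
    refine not_sol_of_perf hp h0 (sol_of_quo hn (pg_sol Nat.prime_two (pg_le hQ inf_le_left)) (ft fun e => ?_))
    rw [card_quo hn] at e
    exact IsSylowIn.not_dvd' (isSylowIn_top Nat.prime_two P) Nat.prime_two (e.trans (relIndex_dvd_left ⊤ (dih_le hd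
      ((mul_mem_cancel_right (h1 b hF.hv)).1 (h1 _ (dih_mul hd).ord_τ)) (h1 b hF.hv))))
  · obtain rfl : L = ⊤ := h.elim (fun h => top_le_iff.1 (hp.ge.trans h.der)) And.left
    exact topEquiv.symm.isSimpleGroup

theorem isL_quot (hN : NoCtx.{u}) (hD : DS G) (hp : ⁅(⊤ : Subgroup G), (⊤ : Subgroup G)⁆ = ⊤) (h2 : 2 ∣ Nat.card G) :
    IsL (G ⧸ oddCore G) := by
  have h1 : ⁅(⊤ : Subgroup (G ⧸ oddCore G)), (⊤ : Subgroup (G ⧸ oddCore G))⁆ = ⊤ := by
    rw [← map_top_of_surjective _ (QuotientGroup.mk'_surjective (oddCore G)), ← map_commutator, hp]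
  have := simple_of_perf hN hD.quot oo_quot h1 fun e => oo_odd (⊤ : Subgroup G) (by
    rw [← map_top_of_surjective _ (QuotientGroup.mk'_surjective (oddCore G)), Subgroup.map_eq_bot_iff, QuotientGroup.ker_mk'] at e
    rwa [oo_top, top_le_iff.1 e, card_top])
  exact isL_of hN hD.quot h1

end H23.GW
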