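import Mathlib
import Cfsg.Agent.H23.GW9
import Cfsg.Agent.H08.GWNoMix

/-!
# The Gorenstein-Walter theorem

`isL` (perfect simple groups with `DS`), `tri` (structure of `X/O(X)`), `isL_quot'`.
-/

set_option autoImplicit false
open Cfsg BG Subgroup H22

namespace H23.GW
universe u
variable {G : Type u} [Group G] [Finite G]

theorem noCtx : NoCtx.{u} := fun _ _ _ _ h => H08.GW.nomix (fun _ _ _ hm =>
  let ⟨_, _, _, h1, h2, h3⟩ := h.mixed_M hm
  H08.GW.cfgM h h1 h2 h3) h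

theorem isL [IsSimpleGroup G] (hD : DS G) (hp : ⁅(⊤ : Subgroup G), (⊤ : Subgroup G)⁆ = ⊤) : IsL G := isL_of noCtx hD hp
theorem tri (hD : DS G) (hO : oo (⊤ : Subgroup G) = ⊥) : Tri G := tri_all noCtx hD hO
theorem isL_quot' (hD : DS G) (hp : ⁅(⊤ : Subgroup G), (⊤ : Subgroup G)⁆ = ⊤) (h2 : 2 ∣ Nat.card G) :
    IsL (G ⧸ oddCore G) := isL_quot noCtx hD hp h2

theorem ds_of_equiv (S : Sylow 2 G) {n : ℕ} (hn : 2 ≤ n) (e : (S : Subgroup G) ≃* DihedralGroup n) : DS G :=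
  let ⟨_, _, _, _, h⟩ := H08.exists_dih S.isPGroup' hn e
  ds_of_dih h.2

end H23.GW
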