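import Cfsg.Agent.H23.KZ
import Cfsg.Agent.H10.KH
import Cfsg.Agent.H02.KL
import Cfsg.Agent.H27.KB
import Cfsg.Agent.H27.KU
import Cfsg.Agent.H21.KG
import Cfsg.Agent.H22.KE
import Cfsg.Agent.H28.KC
import Cfsg.Agent.H11.K89
import Cfsg.Agent.H07.KN
import Cfsg.Agent.H13.KI
import Cfsg.Agent.H29.KJ1
import Cfsg.Agent.H14.KJ2
import Cfsg.Agent.H02.FzK
import Cfsg.Agent.H08.FzN
import Cfsg.Agent.H04.FzX
import Cfsg.Agent.H28.FzT
import Cfsg.Agent.H25.FzS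
import Cfsg.Agent.H10.FzF

/-! S5567 from the five parts `X F O S W`. -/

set_option autoImplicit false
open Cfsg

namespace Cfsg.Agent.H23.K
universe u

theorem fin2 (X : XStmt.{u}) (F : FStmt.{u}) (O : OStmt.{u}) (S : SStmt.{u}) (W : WStmt.{u})
    {G : Type u} [Group G] [Finite G] [IsSimpleGroup G] (hG : ¬ IsMulCommutative G) (hJ : IsOfJankoFourType G)
    (V : Subgroup G) (hV : IsElementaryAbelian 2 V) (hc : Nat.card ↥V = 2 ^ 11) :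
    Subgroup.centralizer (V : Set G) ≤ V ∧ ∃ K : Subgroup G, K ≤ Subgroup.normalizer (V : Set G) ∧ K ⊓ V = ⊥ ∧
      K ⊔ V = Subgroup.normalizer (V : Set G) ∧ Spor.IsoM24 ↥K :=
  fin _root_.H10.KH.h2 Cfsg.Agent.H02.KL.l2 @_root_.H27.KB.b @_root_.H27.KU.u X _root_.H21.KG.G F _root_.H22.KE.e O
    @_root_.H28.KC.c _root_.H11.K89.n89 _root_.H07.KN.n S @_root_.H13.KI.i _root_.H29.KJ.j1 _root_.H14.KJ2.j2 W
    Cfsg.Agent.H02.FzK.k _root_.H08.FzN.n _root_.H04.FzX.x _root_.H28.FzT.t _root_.H25.Fz.s _root_.H10.FzF.f hG hJ V hV hc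

end Cfsg.Agent.H23.K
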