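import Cfsg.Agent.H23.K0
import Cfsg.Agent.H26.JE
import Cfsg.Agent.H21.JU1
import Cfsg.Agent.H18.JU2
import Cfsg.Agent.H22.JU
import Cfsg.Agent.S0051
import Cfsg.Agent.S5566

/-! Assembly of S5567 from the parts of `H23.K0`. -/

set_option autoImplicit false
open Cfsg BG Subgroup H01.XS Cfsg.Agent.H06.J H20.FtW

namespace Cfsg.Agent.H23.K
universe u

theorem gas {G : Type u} [Group G] [Finite G] {A D U : Subgroup G} (e : EA A) (cA : Nat.card A = 2048) (AU : A ≤ U)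
    (cN : Nat.card N_(A) = 1771 * (2 ^ 21 * 135)) (cU : Nat.card ↥(N_(A) ⊓ U) = 2 ^ 21 * 135) (DU : D ≤ N_(A) ⊓ U)
    (DA : D ⊓ A = ⊥) (cD : Nat.card D = 138240) [(A.subgroupOf N_(A)).Normal]
    (i : Nonempty (↥N_(A) ⧸ A.subgroupOf N_(A) ≃* Cfsg.M24)) :
    ∃ K ≤ N_(A), K ⊓ A = ⊥ ∧ K ⊔ A = N_(A) ∧ Spor.IsoM24 K := by
  have lA : A ≤ N_(A) := le_normalizer
  have : IsMulCommutative (A.subgroupOf N_(A)) := ⟨⟨fun x y => Subtype.ext (Subtype.ext (e.comm x.2 y.2))⟩⟩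
  have c1 : Nat.card (A.subgroupOf N_(A)) = 2048 := (Nat.card_congr (subgroupOfEquivOfLe lA).toEquiv).trans cA
  have c2 : Nat.card (D.subgroupOf N_(A)) = 138240 :=
    (Nat.card_congr (subgroupOfEquivOfLe (DU.trans inf_le_left)).toEquiv).trans cD
  have c3 : Nat.card ((N_(A) ⊓ U).subgroupOf N_(A)) = 2 ^ 21 * 135 :=
    (Nat.card_congr (subgroupOfEquivOfLe inf_le_left).toEquiv).trans cU
  have i1 := ((N_(A) ⊓ U).subgroupOf N_(A)).card_mul_index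
  rw [c3, cN] at i1
  have b : D.subgroupOf N_(A) ⊓ A.subgroupOf N_(A) = ⊥ := by
    rw [eq_bot_iff]
    intro x o
    exact mem_bot.2 (Subtype.ext (mem_bot.1 (DA.le ⟨o.1, o.2⟩)))
  have l1 : A.subgroupOf N_(A) ≤ (N_(A) ⊓ U).subgroupOf N_(A) := fun x o => ⟨x.2, AU o⟩
  have l2 : D.subgroupOf N_(A) ≤ (N_(A) ⊓ U).subgroupOf N_(A) := fun x o => DU o
  have r1 := card_inf_mul_relIndex (A.subgroupOf N_(A)) (D.subgroupOf N_(A))
  rw [inf_comm, b, card_bot, c2, one_mul] at r1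
  have r2 := card_mul_relIndex (le_sup_left : A.subgroupOf N_(A) ≤ A.subgroupOf N_(A) ⊔ D.subgroupOf N_(A))
  rw [relIndex_sup_left, r1, c1] at r2
  obtain ⟨H, hH⟩ := Cfsg.Agent.S0051.result (A.subgroupOf N_(A)) ((N_(A) ⊓ U).subgroupOf N_(A)) l1
    (by rw [c1, show ((N_(A) ⊓ U).subgroupOf N_(A)).index = 1771 by omega]; norm_num) _ l2 b
    (Subgroup.eq_of_le_of_card_ge (sup_le l1 l2) (by rw [c3, ← r2]; norm_num))
  obtain ⟨i⟩ := i
  refine ⟨H.map (Subgroup.subtype _), map_subtype_le _, ?_, ?_, ⟨((H.equivMapOfInjective _ (subtype_injective _)).symm.trans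
    hH.symm.QuotientMulEquiv.symm).trans i⟩⟩
  · rw [eq_bot_iff]
    rintro _ ⟨⟨x, o, rfl⟩, o'⟩
    rw [mem_bot.1 (hH.disjoint.le_bot ⟨o', o⟩ : x ∈ (⊥ : Subgroup N_(A)))]
    exact one_mem _
  · refine le_antisymm (sup_le (map_subtype_le _) lA) fun x o => ?_
    obtain ⟨⟨a, h⟩, w⟩ := hH.2 ⟨x, o⟩
    rw [show x = (a.1 : G) * (h.1 : G) from (congrArg Subtype.val w).symm]
    exact mul_mem (mem_sup_right a.2) (mem_sup_left ⟨_, h.2, rfl⟩)

theorem fin (h2 : H2Stmt) (l2 : L2Stmt.{u}) (b2 : B2Stmt.{u}) (U : UStmt.{u}) (X : XStmt.{u}) (Gs : GStmt.{u})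
    (F : FStmt.{u}) (Es : EStmt.{u}) (O : OStmt.{u}) (C : CStmt.{u}) (N89 : N89Stmt.{u}) (N : NStmt.{u}) (S : SStmt.{u})
    (I : IStmt.{u}) (J1 : J1Stmt.{u}) (J2 : J2Stmt.{u}) (W : WStmt.{u})
    (fK : _root_.L.Fz.KStmt.{u}) (fN : _root_.L.Fz.NStmt.{u}) (fX : _root_.L.Fz.XStmt.{u}) (fT : _root_.L.Fz.TStmt.{u})
    (fS : _root_.L.Fz.SStmt.{u}) (fF : _root_.L.Fz.FStmt.{u})
    {G : Type u} [Group G] [Finite G] [sG : IsSimpleGroup G] (hG : ¬ IsMulCommutative G) (hJ : IsOfJankoFourType G)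
    (V : Subgroup G) (hV : IsElementaryAbelian 2 V) (hc : Nat.card ↥V = 2 ^ 11) :
    Subgroup.centralizer (V : Set G) ≤ V ∧ ∃ K : Subgroup G, K ≤ Subgroup.normalizer (V : Set G) ∧ K ⊓ V = ⊥ ∧
      K ⊔ V = Subgroup.normalizer (V : Set G) ∧ Spor.IsoM24 ↥K := by
  have u := U (Cfsg.Agent.S5566.result hG hJ)
  obtain ⟨z, P, hJ⟩ := hJ
  obtain ⟨Q, V', _, _, _, Γ, _, _, f, π, ν, T, d, M, β, q, s, dc, ou, ρ, ρs, ρk⟩ := b2 z P hJ
  obtain ⟨K₀, Y₀, h0⟩ := h2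
  have g := s.gm
  obtain ⟨K, Y, hk, dK⟩ := l2 ρ g.d3 g.dM g.Md dc ρs ρk h0
  obtain ⟨B, p⟩ := _root_.H21.JU1.u1 g hk.hx hk.KM dK
  have pi := _root_.H18.JU.u2 g hk.hx hk.KM p
  obtain ⟨A, Az, A2, cA, AY, mA⟩ := _root_.H26.JE.e s hk.hx hk.KM p
  obtain ⟨δ, δz, δd, δ3⟩ := _root_.H26.JE.exδ s
  have x : Cx s K Y B A δ := ⟨hk, dK, p, pi, _root_.H22.JU.u3 g hk.hx hk.KM dK p pi, Az, A2, cA, AY, mA, u, δz, δd, δ3, ou⟩
  have c : C2 s Y B A δ := X s K Y B A δ x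
  have l := s.md.lx
  have fu : ∃ m ∈ N_(A), m * z * m⁻¹ ≠ z := F s K Y B A δ x c sG hG
  obtain ⟨O1, O2, pB, c1, c2, t1, t2⟩ := O s K Y B A δ x c
  obtain ⟨E, F', pA, cE, cF, zE, tE, tF, iE⟩ := C s K Y B A δ x c (Gs s K Y B A δ x)
  have nM : ∀ m ∈ N_(A), ∀ y ∈ A, m * y * m⁻¹ ∈ A := fun m i y j => (mem_normalizer_iff.1 i y).1 j
  have zB : z ∈ s.md.pull B := ⟨l.aes.mem, s.md.zz ▸ zero_mem _⟩
  have BA : s.md.pull B ≤ A := c.e3 ▸ inf_le_left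
  have QN : Q ≤ N_(A) := fun y o => (c.mN y (l.le o)).2 fun v i => by rwa [(s.ker y (l.le o)).2 o, g.one]
  have zc : ∀ y ∈ C_[z], y * z = z * y := fun y o => mem_cent1.1 o
  have ob : Ob A N_(A) (s.md.pull B) z O1 O2 E F' := by
    refine ⟨A2, cA, le_normalizer, nM, fun m _ => c.cen m, l.z1, zB, BA, by rw [s.md.card_pull, p.cB], fun m i j y o => ?_,
      ⟨Q, QN, IsPGroup.of_card (n := 13) s.card, fun y _ k => l.cz k⟩, fun t i j k => ?_, c.cN, pB, c1, c2, t1, t2, pA, cE,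
      cF, zE, tE, tF, fun y i j => ?_, fu, fun k => ?_⟩
    · exact c.e3.le ⟨nM m i y (BA o), (mem_normalizer_iff.1 (l.norm (mem_cent1.2 (mul_inv_eq_iff_eq_mul.1 j))) y).1 o.1⟩
    · by_contra n
      refine (l.cz fun r o => (l.cm o i.1).resolve_right fun w => n ⟨r, QN o, ?_, ?_⟩).elim j k
      · rw [zc r (l.le o), mul_inv_cancel_right]
      · rw [w, mul_inv_cancel_right, zc t (l.le i.1)]
    · obtain ⟨r, rA, rδ, w⟩ := c.YA _ (AY y i)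
      refine ⟨r, iE r rA rδ fun o => j (c.e3.le ⟨i, (s.ker y (Az i)).1 (w ▸ (s.ker r (Az rA)).2 o.1)⟩),
        c.e3.le ⟨mul_mem rA i, (s.ker _ (Az (mul_mem rA i))).1 ?_⟩⟩
      rw [_root_.H26.JE.mul s r (Az rA) y (Az i), w, hk.hx.Y2 _ (AY y i)]
    · obtain ⟨m, i, j⟩ := fu
      exact j (Es s K Y B A δ x c k m i)
  obtain ⟨cf, eD, cN⟩ := N ob (N89 A2 cA ob.AM nM ob.cen)
  have kb := fK cf
  have nb := fN cf kb
  obtain ⟨Ω, τ, σ, r⟩ := fT cf nb (fX cf kb nb)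
  obtain ⟨e, he⟩ := fS cf nb r
  obtain ⟨⟨nA, iso⟩, -⟩ := fF e cf kb nb r he
  have nz : ∀ t ∈ A, t ∈ C_[δ] → ∀ m ∈ N_(A), m * t * m⁻¹ ≠ t * z := fun t i j m k w => by
    by_cases o : t ∈ s.md.pull B
    · rcases _root_.H26.JE.cq s δz δd o.1 j with rfl | rfl
      · exact l.z1 (by simpa using w.symm)
      · rw [l.zz] at w
        exact l.z1 (by simpa using w)
    · have : t ∈ DD A N_(A) z := (eD t (iE t i j o)).elim id fun a => by
        have := cf.Dc _ (inv_mem k) _ a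
        rwa [← w, show m⁻¹ * (m * t * m⁻¹) * m⁻¹⁻¹ = t by group] at this
      exact o (nb.a t this (w ▸ cf.Dc m k t this))
  have j1 := J1 (A.subgroupOf N_(A)) (Q.subgroupOf N_(A)) iso (by
    have a1 := card_inf_mul_relIndex (QuotientGroup.mk' (A.subgroupOf N_(A))).ker (Q.subgroupOf N_(A))
    rw [relIndex_ker, QuotientGroup.ker_mk', show A.subgroupOf N_(A) ⊓ Q.subgroupOf N_(A) = (A ⊓ Q).subgroupOf N_(A) from rfl,
      Nat.card_congr (subgroupOfEquivOfLe (inf_le_right.trans QN)).toEquiv, Nat.card_congr (subgroupOfEquivOfLe QN).toEquiv,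
      c.e3, ob.cB, s.card] at a1
    omega) fun y o => by
    rcases l.sq (mem_subgroupOf.1 o) with w | w
    · exact ⟨1, one_mem _, Subtype.ext (by simpa [pow_two] using w)⟩
    have nB : ν y ∉ B := fun k => l.z1 (w ▸ (pow_two _).trans (A2 _ (BA ⟨o, k⟩)))
    have : ¬ ∀ v ∈ B, β (ν y) v = 0 := fun k => nB (g.toQF.perp (fun a i b j => by
      simpa [p.qB _ i, p.qB _ j, p.qB _ (add_mem i j)] using (g.pol a b).symm) (by rw [p.cB]; norm_num) k)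
    push Not at this
    obtain ⟨v, i, k⟩ := this
    obtain ⟨n, nQ, rfl⟩ := s.md.sur v
    have nA := BA ⟨nQ, i⟩
    refine ⟨⟨n, QN nQ⟩, nA, Subtype.ext ?_⟩
    have w2 : n * (y : G) = z * y * n := (l.cm nQ o).resolve_left fun a => k ((s.b _ o _ nQ).2 a.symm)
    show (y : G) * n * (y * n) = 1
    rw [show (y : G) * n * (y * n) = y * (n * y) * n by group, w2,
      show (y : G) * (z * y * n) * n = y * z * y * (n * n) by group, A2 n nA, zc (y : G) (l.le o), mul_one, mul_assoc, ← pow_two, w, l.zz]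
  obtain ⟨L, B', sg⟩ := S s K Y B A δ x c
  obtain ⟨D, DU, DA, cD⟩ := W s K Y B A δ x c I L B' sg fun t i j k o w => J2 s K Y B A δ x c nz t i j k o w (by
    have tA : t * t ∈ A := by
      rcases _root_.H26.JE.cq s δz δd ((s.ker _ (mul_mem i i)).1 ((_root_.H26.JE.mul s t i t i).trans w))
        (mem_cent1.2 (by
          have k' : t * δ⁻¹ * t⁻¹ = δ := by rw [← inv_inj, show (t * δ⁻¹ * t⁻¹)⁻¹ = t * δ * t⁻¹ by group, k]
          rw [show t * t * δ = t * (t * δ * t⁻¹) * t⁻¹ * (t * t) by group, k, k'])) with a | a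
      · exact a ▸ one_mem _
      · exact a ▸ BA zB
    obtain ⟨n, a, b⟩ := j1 ⟨t, j⟩ tA
    exact ⟨n, a, congrArg Subtype.val b⟩)
  obtain ⟨K0, k1, k2, k3, ⟨k4⟩⟩ := gas A2 cA Az cN c.cN DU DA cD iso
  have eV : EA V := fun y o => (pow_two y).symm.trans (hV.2 y o)
  obtain ⟨T0, lT⟩ := eV.pg.exists_le_sylow
  have hT := isSylowIn_top Nat.prime_two T0
  obtain ⟨a, -, la⟩ := sylow_Jsub Nat.prime_two hT (EA.pg A2) le_top
  obtain rfl : V = cj a A := (u T0 T0.2).2 V lT _ la eV (EA.cj A2 a) hc ((BG.card_cj a A).trans cA)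
  refine ⟨fun y o => mem_cj.2 (c.cen _ fun t i => ?_), cj a K0, ?_, ?_, ?_, ⟨(cjEquiv a K0).symm.trans k4⟩⟩
  · have := o _ (conj_mem_cj_iff.2 i : a * t * a⁻¹ ∈ cj a A)
    rw [show a⁻¹ * y * a * t = a⁻¹ * (y * (a * t * a⁻¹)) * a by group, ← this]; group
  · rw [← cj_norm]; exact Subgroup.map_mono k1
  · rw [← cj_inf, k2]; exact Subgroup.map_bot _
  · rw [← cj_norm, ← k3]; exact (Subgroup.map_sup _ _ _).symm

end Cfsg.Agent.H23.K
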