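import Mathlib
import Cfsg.Agent.BG.C1_15
import Cfsg.Agent.BG.C1_16
import Cfsg.Agent.BG.C1_17
import Cfsg.Agent.BG.C3_7
import Cfsg.Agent.H03.FP4

/-!
# Coprime action of `E_{r²}` with abelian centralisers (Martineau-type argument), local lemmas
* `Ctx`, `Iv`; `Ctx.lemG` (`[P,a]` is generated by the other centralisers), `Ctx.lemF` (Frobenius generation).
* `MC` minimal counterexample: `f0` (no fixed points), `le_sy`, `burn`, `join`.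
-/

set_option autoImplicit false
set_option linter.unusedSectionVars false
open Cfsg BG Subgroup
open scoped commutatorElement

namespace H23.Mt
universe u
variable {G : Type u} [Group G] [Finite G] {A B D H K L N P Q S V X Y : Subgroup G} {a b : G} {p q r s : ℕ} {π : Set ℕ}

/-- an `A`-invariant subgroup of `K` -/
structure Iv (A K X : Subgroup G) : Prop where
  le : X ≤ K
  n : A ≤ N_(X)

theorem Iv.inf (h : Iv A K X) (h' : A ≤ N_(Y)) : Iv A K (X ⊓ Y) := ⟨inf_le_left.trans h.le, norm_inf h.n h'⟩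
theorem Iv.sup (h : Iv A K X) (h' : Iv A K Y) : Iv A K (X ⊔ Y) := ⟨sup_le h.le h'.le, norm_sup h.n h'.n⟩
theorem Iv.cent (h : Iv A K X) (h' : Iv A K Y) : Iv A K (X ⊓ C_(Y)) := h.inf (norm_cent h'.n)
theorem Iv.norm (h : Iv A K X) (h' : Iv A K Y) : Iv A K (X ⊓ N_(Y)) := h.inf (norm_norm h'.n)
theorem Iv.pcore (h : Iv A K X) (π : Set ℕ) : Iv A K (piCoreOf π X) := ⟨(pcore_le _ _).trans h.le, norm_pcore π h.n⟩
theorem Iv.comm (h : Iv A K X) (h' : A ≤ N_(Y)) (hn : Y ≤ N_(X)) : Iv A K ⁅X, Y⁆ := ⟨(comm_le_left hn).trans h.le, norm_comm h.n h'⟩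

structure Ctx (r : ℕ) (A K : Subgroup G) : Prop where
  pr : r.Prime
  el : IsElem r 2 A ⊤
  nk : A ≤ N_(K)
  nd : ¬ r ∣ Nat.card K
  ab : ∀ a ∈ A, a ≠ 1 → IsMulCommutative ↥(K ⊓ C_[a])

namespace Ctx
variable (c : Ctx r A K)
include c
theorem top : Iv A K K := ⟨le_rfl, c.nk⟩
theorem cop (hB : B ≤ A) (h : X ≤ K) : (Nat.card B).Coprime (Nat.card X) :=
  pg_coprime c.pr (pg_le c.el.pg hB) (not_dvd_of_le c.nd h)
theorem sA : Group.IsSolvable A := pg_sol c.pr c.el.pg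
theorem ac (ha : a ∈ A) : A ≤ C_[a] := c.el.le_cent.trans (cent_le_cent1 ha)
theorem nz (ha : a ∈ A) : A ≤ N_(zpowers a) := le_norm_of_abelian c.el.abelian (zpowers_le.2 ha)
theorem c1 (h : Iv A K X) (ha : a ∈ A) : Iv A K (X ⊓ C_[a]) := h.inf (norm_cent1 (c.ac ha))
theorem gen (h : Iv A K X) (k : ∀ a ∈ A, a ≠ 1 → X ⊓ C_[a] ≤ L) : X ≤ L :=
  T1_16.cent1 c.el.abelian (c.el.not_cyclic c.pr) h.n (c.cop le_rfl h.le) k
theorem exa (h : Iv A K X) (h0 : X ≠ ⊥) : ∃ a ∈ A, a ≠ 1 ∧ X ⊓ C_[a] ≠ ⊥ := by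
  by_contra! k
  exact h0 (eq_bot_iff.2 (c.gen h fun a ha h1 => (k a ha h1).le))
theorem cc (ha : a ∈ A) (h1 : a ≠ 1) (hX : X ≤ K) (hY : Y ≤ K) (h2 : X ≤ C_[a]) (h3 : Y ≤ C_[a]) : X ≤ C_(Y) :=
  le_cent_of_abelian (c.ab a ha h1) (le_inf hX h2) (le_inf hY h3)
theorem cz (ha : a ∈ A) (h1 : a ≠ 1) : Nat.card (zpowers a) = r := c.el.elemAb.card_zpowers c.pr ha h1
theorem pz (ha : a ∈ A) (h1 : a ≠ 1) : (Nat.card (zpowers a)).Prime := (c.cz ha h1).symm ▸ c.pr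
theorem two (ha : a ∈ A) (h1 : a ≠ 1) (hb : b ∈ A) (h : b ∉ zpowers a) : zpowers a ⊔ zpowers b = A :=
  (c.el.dprod c.pr (zpowers_le.2 ha) (zpowers_le.2 hb) (c.cz ha h1) (c.cz hb (by rintro rfl; exact h (one_mem _)))
    (fun e => h (e ▸ mem_zpowers b))).sdprod.isComplIn.sup

theorem lemG (hp : p.Prime) (hP : IsPGroup p P) (h : Iv A K P) (ha : a ∈ A) (h1 : a ≠ 1) (hL : A ≤ N_(L))
    (k : ∀ b ∈ A, b ∉ zpowers a → P ⊓ C_[b] ≤ L) : ⁅P, zpowers a⁆ ≤ L := by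
  have hn : zpowers a ≤ N_(P) := (zpowers_le.2 ha).trans h.n
  obtain ⟨U, hU⟩ : ∃ U, U = ⁅P, zpowers a⁆ := ⟨_, rfl⟩
  have iU : Iv A K U := hU ▸ h.comm (c.nz ha) hn
  have UP : U ≤ P := hU ▸ comm_le_left hn
  have e : ⁅U, zpowers a⁆ = U := hU ▸ coprime_comm_comm hn (c.cop (zpowers_le.2 ha) h.le) (Or.inr (pg_sol hp hP))
  have NU : (U ⊓ L) ⊔ frattiniOf U ≤ U := sup_le inf_le_left (phi_le U)
  have n1 : U ≤ N_((U ⊓ L) ⊔ frattiniOf U) := le_norm_of_der_le ((der_le_phi hp (pg_le hP UP)).trans le_sup_right) NU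
  have n2 : zpowers a ≤ N_((U ⊓ L) ⊔ frattiniOf U) :=
    (zpowers_le.2 ha).trans (norm_sup (norm_inf iU.n hL) (norm_phi iU.n))
  have g : U ≤ ((U ⊓ L) ⊔ frattiniOf U) ⊔ (U ⊓ C_[a]) := c.gen iU fun b hb b1 => by
    by_cases m : b ∈ zpowers a
    · rw [cent1_eq_of_prime (c.pz ha h1) m b1, cent_zpowers]; exact le_sup_right
    · exact le_sup_of_le_left (le_sup_of_le_left (le_inf inf_le_left ((inf_le_inf_right _ UP).trans (k b hb m))))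
  have g2 : U ≤ (U ⊓ L) ⊔ frattiniOf U := e.ge.trans ((comm_mono g le_rfl).trans (comm_sup_le (le_norm _) (inf_le_left.trans n1)
    (comm_le_left n2) ((comm_eq_bot.2 (by rw [cent_zpowers]; exact inf_le_right)).le.trans bot_le)))
  rw [← hU]
  exact (eq_of_le_sup_phi inf_le_left g2).ge.trans inf_le_right

variable (f0 : K ⊓ C_(A) = ⊥)
include f0
theorem fx (ha : a ∈ A) (h1 : a ≠ 1) (hb : b ∈ A) (h : b ∉ zpowers a) (hB : B ≤ K) (h2 : B ≤ C_[a]) : B ⊓ C_(zpowers b) = ⊥ :=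
  BG.eq_bot_mono f0 (le_inf (inf_le_left.trans hB) (by
    rw [← c.two ha h1 hb h]; exact le_cent_sup (inf_le_left.trans (by rwa [cent_zpowers])) inf_le_right))

theorem lemF (hp : p.Prime) (hV : IsPGroup p V) (iV : Iv A K V) (iB : Iv A K B) (ha : a ∈ A) (h1 : a ≠ 1) (h2 : B ≤ C_[a])
    (h3 : ¬ p ∣ Nat.card B) (hn : B ≤ N_(V)) (hb : b ∈ A) (h : b ∉ zpowers a) (hY : A ≤ N_(Y)) (h4 : B ≤ C_(Y))
    (h5 : V ⊓ C_[b] ≤ C_(Y)) : ⁅V, B⁆ ≤ C_(Y) := by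
  obtain ⟨U, hU⟩ : ∃ U, U = ⁅V, B⁆ := ⟨_, rfl⟩
  have iU : Iv A K U := hU ▸ iV.comm iB.n hn
  have UV : U ≤ V := hU ▸ comm_le_left hn
  have pU := pg_le hV UV
  have e : ⁅U, B⁆ = U := hU ▸ coprime_comm_comm hn (pg_coprime hp hV h3).symm (Or.inr (pg_sol hp hV))
  have BU : B ≤ N_(U) := hU ▸ right_le_norm_comm _ _
  obtain ⟨N, hN⟩ : ∃ N, N = (U ⊓ C_(Y)) ⊔ frattiniOf U := ⟨_, rfl⟩
  have NU : N ≤ U := hN ▸ sup_le inf_le_left (phi_le U)
  have n1 : U ≤ N_(N) := le_norm_of_der_le ((der_le_phi hp pU).trans (hN ▸ le_sup_right)) NU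
  have n2 : A ≤ N_(N) := hN ▸ norm_sup (norm_inf iU.n (norm_cent hY)) (norm_phi iU.n)
  have n3 : B ≤ N_(N) := hN ▸ norm_sup (norm_inf BU (norm_of_le h4)) (norm_phi BU)
  have b1 : b ≠ 1 := by rintro rfl; exact h (one_mem _)
  have RA : zpowers b ≤ A := zpowers_le.2 hb
  have iH := iU.sup iB
  have sH : Group.IsSolvable ↥(U ⊔ B) := sol_sup (sol_of_abelian (abelian_of_le (c.ab a ha h1) (le_inf iB.le h2))) (pg_sol hp pU) BU
  have k1 : (U ⊔ B) ⊓ C_(zpowers b) ≤ N := by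
    rw [coprime_cent_prod (RA.trans iU.n) (RA.trans iB.n) BU (c.cop RA (inf_le_left.trans iU.le)) (Or.inl (sol_of_le c.sA RA)),
      c.fx f0 ha h1 hb h iB.le h2, sup_bot_eq, cent_zpowers, hN]
    exact le_sup_of_le_left (le_inf inf_le_left ((inf_le_inf_right _ UV).trans h5))
  have k2 := H03.quo_cent_bot (RA.trans n2) (sup_le n1 n3) (RA.trans iH.n) (c.cop RA iH.le) sH k1
  have k3 : (Nat.card (quo N (zpowers b))).Prime := by
    rw [prime_card_quo (RA.trans n2) (c.pz hb b1) fun k => c.nd (c.cz hb b1 ▸ card_dvd (k.trans (NU.trans iU.le)))]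
    exact c.pz hb b1
  have k4 := T3_7.prime (sol_quo N sH) (quo_le_norm N (RA.trans iH.n)) k3 k2
  have k5 := comm_le_of_quo n1 n3 (nil_cent_of_coprime k4 (quo_mono N le_sup_left) (quo_mono N le_sup_right)
    (coprime_quo N (pg_coprime hp pU h3)))
  rw [e, hN] at k5
  rw [← hU]
  exact (eq_of_le_sup_phi inf_le_left k5).ge.trans inf_le_right

theorem lemF1 (hp : p.Prime) (hV : IsPGroup p V) (iV : Iv A K V) (iB : Iv A K B) (ha : a ∈ A) (h1 : a ≠ 1) (h2 : B ≤ C_[a])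
    (h3 : ¬ p ∣ Nat.card B) (hn : B ≤ N_(V)) (hb : b ∈ A) (h : b ∉ zpowers a) (h5 : V ⊓ C_[b] ≤ C_(B)) : B ≤ C_(V) :=
  coprime_cent_of_comm hn (pg_coprime hp hV h3).symm (Or.inr (pg_sol hp hV))
    (c.lemF f0 hp hV iV iB ha h1 h2 h3 hn hb h iB.n (c.cc ha h1 iB.le iB.le h2 h2) h5)
end Ctx

/-- the invariant Sylow subgroup -/
structure Sy (p : ℕ) (A K P : Subgroup G) : Prop where
  pr : p.Prime
  syl : IsSylowIn p P K
  n : A ≤ N_(P)

theorem Sy.iv (h : Sy p A K P) : Iv A K P := ⟨h.syl.le, h.n⟩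
theorem Sy.pg (h : Sy p A K P) : IsPGroup p P := h.syl.pg h.pr
theorem Sy.z (h : Sy p A K P) : Iv A K (P ⊓ C_(P)) := h.iv.cent h.iv

structure MC (r : ℕ) (A K : Subgroup G) : Prop extends Ctx r A K where
  sol : ∀ H < K, A ≤ N_(H) → Group.IsSolvable H
  sim : ∀ N ≤ K, K ≤ N_(N) → A ≤ N_(N) → N = ⊥ ∨ N = K
  ns : ¬ Group.IsSolvable K

namespace MC
variable (c : MC r A K)
include c
theorem exs (hp : p.Prime) : ∃ P, Sy p A K P :=
  (coprime_sylow_exists hp (Or.inl c.sA) c.nk (c.cop le_rfl le_rfl)).imp fun _ h => ⟨hp, h.1, h.2⟩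

theorem f0 : K ⊓ C_(A) = ⊥ := by
  have i : Iv A K (K ⊓ C_(A)) := c.top.inf (norm_cent (le_norm A))
  have k : K ≤ C_(K ⊓ C_(A)) := c.gen c.top fun a ha h1 =>
    c.cc ha h1 inf_le_left inf_le_left inf_le_right (inf_le_right.trans (cent_le_cent1 ha))
  refine (c.sim _ i.le (le_norm_of_cent k) i.n).resolve_right fun e => c.ns (sol_of_abelian (abelian_iff.2 ?_))
  rwa [e] at k

theorem loc (h : Iv A K D) (h0 : D ≠ ⊥) (hs : Group.IsSolvable D) : Group.IsSolvable ↥(K ⊓ N_(D)) :=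
  c.sol _ (lt_of_le_of_ne inf_le_left fun e => (c.sim D h.le (e.ge.trans inf_le_right) h.n).elim h0 fun e' => c.ns (e' ▸ hs))
    (c.top.norm h).n

theorem le_sy (hP : Sy p A K P) (h : Iv A K X) (hX : IsPGroup p X) : X ≤ P := by
  obtain ⟨T, h1, h2, h3⟩ := coprime_sylow_superset hP.pr (Or.inl c.sA) c.nk (c.cop le_rfl le_rfl) hX h.le h.n
  obtain ⟨x, hx, e⟩ := coprime_sylow_trans hP.pr (Or.inl c.sA) c.nk (c.cop le_rfl le_rfl) h1 hP.syl h2 hP.n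
  rw [c.f0, mem_bot] at hx
  rwa [e, hx, cj_one]

theorem syl_inf (hP : Sy p A K P) (h : Iv A K H) : IsSylowIn p (H ⊓ P) H := by
  obtain ⟨T, h1, h2⟩ := coprime_sylow_exists hP.pr (Or.inl c.sA) h.n (c.cop le_rfl h.le)
  rwa [h1.eq_of_pg hP.pr (pg_le hP.pg inf_le_right) (le_inf h1.le (c.le_sy hP ⟨h1.le.trans h.le, h2⟩ (h1.pg hP.pr))) inf_le_left]

theorem burn (hP : Sy p A K P) (h0 : P ≠ ⊥) (ha : a ∈ A) (h1 : a ≠ 1) : ⁅P, zpowers a⁆ ≠ ⊥ := fun e => by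
  have := Fact.mk hP.pr
  have h2 : P ≤ C_(zpowers a) := comm_eq_bot.1 e
  have i := c.top.norm hP.iv
  have RA : zpowers a ≤ A := zpowers_le.2 ha
  have k := coprime_comm_sup_cent (RA.trans i.n) (c.cop RA i.le) (Or.inl (sol_of_le c.sA RA))
  have k1 : ⁅K ⊓ N_(P), zpowers a⁆ ≤ C_(P) := comm_eq_bot.1 (three_subgroup (by rw [comm_comm (zpowers a), e, commutator_bot_left])
    (comm_eq_bot.2 ((comm_le_left inf_le_right).trans h2)))
  rw [cent_zpowers] at h2 k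
  have k2 := T1_17.burnside hP.syl (k.ge.trans (sup_le k1 (c.cc ha h1 (inf_le_left.trans inf_le_left) hP.syl.le inf_le_right h2)))
  rcases c.sim _ (pcore_le {p}ᶜ K) (le_norm_pcore _ _) (norm_pcore _ c.nk) with e' | e'
  · exact c.ns (k2.eq_right e' ▸ pg_sol hP.pr hP.pg)
  · exact h0 (pg_eq_bot hP.pr hP.pg (not_dvd_of_le (pcore_not_dvd hP.pr K) (hP.syl.le.trans e'.ge)))

/-- the centralisers outside `⟨a⟩` cannot all lie in an invariant subgroup meeting `P` trivially -/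
theorem supp (hP : Sy p A K P) (h0 : P ≠ ⊥) (ha : a ∈ A) (h1 : a ≠ 1) (k : ∀ b ∈ A, b ∉ zpowers a → P ⊓ C_[b] = ⊥) : False :=
  c.burn hP h0 ha h1 (eq_bot_iff.2 (c.lemG hP.pr hP.pg hP.iv ha h1 le_norm_bot fun b hb h => (k b hb h).le))

theorem join (hN : Iv A K N) (hs : Group.IsSolvable N) (iX : A ≤ N_(X)) (iY : A ≤ N_(Y)) (h1 : X ≤ N) (h2 : Y ≤ N)
    (h3 : IsPiSubgroup π X) (h4 : IsPiSubgroup π Y) : IsPiSubgroup π (X ⊔ Y) := by
  obtain ⟨H, k1, k2, k3⟩ := coprime_hall_superset hs hN.n (c.cop le_rfl hN.le) h3 h1 iX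
  obtain ⟨H', k4, k5, k6⟩ := coprime_hall_superset hs hN.n (c.cop le_rfl hN.le) h4 h2 iY
  obtain ⟨x, hx, e⟩ := coprime_hall_trans hs hN.n (c.cop le_rfl hN.le) k1 k4 k2 k5
  have : x = 1 := mem_bot.1 (c.f0 ▸ mem_inf.2 ⟨hN.le hx.1, hx.2⟩)
  rw [this, cj_one] at e
  exact k1.isPi.of_le (sup_le k3 (e ▸ k6))

theorem join' (iD : Iv A K D) (h0 : D ≠ ⊥) (hs : Group.IsSolvable D) (iX : Iv A K X) (iY : Iv A K Y) (h1 : X ≤ N_(D))
    (h2 : Y ≤ N_(D)) (h3 : IsPiSubgroup π X) (h4 : IsPiSubgroup π Y) : IsPiSubgroup π (X ⊔ Y) :=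
  c.join (c.top.norm iD) (c.loc iD h0 hs) iX.n iY.n (le_inf iX.le h1) (le_inf iY.le h2) h3 h4

theorem nilm (h : Iv A K H) (hs : Group.IsSolvable H) : NilMod H (fittingOf H) :=
  nilMod_of_quo (le_norm_fit H) (H03.height_two (H03.twoP_of_elem c.pr c.el) hs h.n (c.cop le_rfl h.le)
    (BG.eq_bot_mono c.f0 (inf_le_inf_right _ h.le)))
end MC

end H23.Mt
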