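import Mathlib
import Cfsg.Agent.H23.Mt1
import Cfsg.Agent.H22.SigF2
import Cfsg.Agent.H16.HallConv
import Cfsg.Agent.H03.BG10b
import Cfsg.Agent.S0117

/-!
# Coprime action of `E_{r²}` with abelian centralisers: solvability (`H23.Mt.main`)
-/

set_option autoImplicit false
set_option linter.unusedSectionVars false
open Cfsg BG Subgroup
open scoped commutatorElement

namespace H23.Mt
universe u
variable {G : Type u} [Group G] [Finite G] {A B D H H' K L L' N P Q S T V X Y Z : Subgroup G} {a b : G} {p q r s : ℕ} {π : Set ℕ}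

/-- the invariant Sylow subgroups `P`, `Q` do not permute -/
structure NP (r p q : ℕ) (π : Set ℕ) (A K P Q : Subgroup G) : Prop where
  mc : MC r A K
  ne : p ≠ q
  mem : ∀ t, t ∈ π ↔ t = p ∨ t = q
  sp : Sy p A K P
  sq : Sy q A K Q
  np : ¬ IsPiSubgroup π (P ⊔ Q)

theorem mx_iv (h : H ∈ maxInvSubgroups K A π) : Iv A K H := ⟨h.1.1, h.1.2.2⟩

namespace NP
variable (c : NP r p q π A K P Q)
include c
theorem symm : NP r q p π A K Q P := ⟨c.mc, c.ne.symm, fun t => (c.mem t).trans or_comm, c.sq, c.sp, sup_comm P Q ▸ c.np⟩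
theorem pi (h : IsPGroup p X) : IsPiSubgroup π X := isPi_of_pg c.sp.pr h ((c.mem p).2 (Or.inl rfl))
theorem piP (h : X ≤ P) : IsPiSubgroup π X := c.pi (pg_le c.sp.pg h)
theorem nn : ¬ P ≤ N_(Q) := fun h => c.np ((c.piP le_rfl).sup' (c.symm.piP le_rfl) h)
theorem p0 : P ≠ ⊥ := fun e => c.nn (e ▸ bot_le)
theorem nd (h : IsPGroup p X) : ¬ q ∣ Nat.card X := pg_not_dvd c.sq.pr c.sp.pr h c.ne.symm
theorem dj : P ⊓ Q = ⊥ := pg_inf_eq_bot c.sp.pr c.sp.pg (c.symm.nd c.sq.pg)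
theorem sol (i : Iv A K X) (h : IsPiSubgroup π X) : Group.IsSolvable X :=
  c.mc.sol X (lt_of_le_of_ne i.le fun e => c.np (h.of_le (e ▸ sup_le c.sp.syl.le c.sq.syl.le))) i.n
theorem core (h : IsPiSubgroup π X) : piCoreOf {p}ᶜ X = piCoreOf {q} X := pcore_congr fun t ht hd => by
  rcases (c.mem t).1 (h t ht hd) with rfl | rfl
  · simpa using c.ne
  · simpa using c.ne.symm
theorem cc (X : Subgroup G) : piCoreOf {p} X ≤ C_(piCoreOf {q} X) := pcore_cent (by simpa using c.ne) X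
theorem oP (i : Iv A K X) : piCoreOf {p} X ≤ P := c.mc.le_sy c.sp (i.pcore _) (pcore_pg c.sp.pr X)

theorem mxn (hH : H ∈ maxInvSubgroups K A π) (iD : Iv A K D) (h0 : D ≠ ⊥) (h1 : D ≤ H) (h2 : H ≤ N_(D)) (i : Iv A K X)
    (h3 : IsPiSubgroup π X) (h4 : X ≤ N_(D)) : X ≤ H :=
  le_sup_right.trans (maxInv_max hH ((mx_iv hH).sup i).le (c.mc.join' iD h0 (sol_of_le (c.sol (mx_iv hH) (maxInv_isPi hH)) h1)
    (mx_iv hH) i h2 h4 (maxInv_isPi hH) h3) ((mx_iv hH).sup i).n le_sup_left).le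

theorem b0 (i : Iv A K X) (h : IsPiSubgroup π X) (h1 : L ≤ piCoreOf {p} H) (h2 : L' ≤ piCoreOf {q} H) (h3 : L ≤ X) (h4 : L' ≤ X)
    (h5 : X ⊓ C_(L) ≤ H) : L' ≤ piCoreOf {q} X := by
  have := Fact.mk c.sp.pr
  rw [← c.core h]
  refine le_trans ?_ (T1_15.b (c.sol i h) h3 (pg_le (pcore_pg c.sp.pr H) h1))
  rw [c.core (h.inf_left _)]
  exact le_pcore_of_le h5 h2 (le_inf h4 (le_cent_mono (c.symm.cc H) h2 h1))

theorem b1 (i : Iv A K X) (h : IsPiSubgroup π X) (h1 : L ≤ piCoreOf {p} H) (h2 : L' ≤ piCoreOf {q} H) (h3 : L ≤ X) (h4 : L' ≤ X)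
    (h5 : X ⊓ C_(L) ≤ H) (h6 : X ⊓ C_(L') ≤ H) :
    L ≤ piCoreOf {p} X ∧ L' ≤ piCoreOf {q} X ∧ piCoreOf {p} X ≤ H ∧ piCoreOf {q} X ≤ H :=
  have k1 := c.b0 i h h1 h2 h3 h4 h5
  have k2 := c.symm.b0 i h h2 h1 h4 h3 h6
  ⟨k2, k1, (le_inf (pcore_le _ _) ((c.cc X).trans (cent_anti k1))).trans h6,
    (le_inf (pcore_le _ _) ((c.symm.cc X).trans (cent_anti k2))).trans h5⟩

theorem mxo (hH : H ∈ maxInvSubgroups K A π) (h0 : piCoreOf {p} H ≠ ⊥) (i : Iv A K X) (h3 : IsPiSubgroup π X)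
    (h4 : X ≤ N_(piCoreOf {p} H)) : X ≤ H :=
  c.mxn hH ((mx_iv hH).pcore _) h0 (pcore_le _ _) (le_norm_pcore _ _) i h3 h4

theorem b2' (hH : H ∈ maxInvSubgroups K A π) (hH' : H' ∈ maxInvSubgroups K A π) (h1 : piCoreOf {p} H ≠ ⊥) (h2 : piCoreOf {q} H ≠ ⊥)
    (h3 : piCoreOf {p} H ≤ H') (h4 : piCoreOf {q} H ≤ H') :
    piCoreOf {p} H ≤ piCoreOf {p} H' ∧ piCoreOf {q} H ≤ piCoreOf {q} H' ∧ piCoreOf {p} H' ≤ H ∧ piCoreOf {q} H' ≤ H :=
  c.b1 (mx_iv hH') (maxInv_isPi hH') le_rfl le_rfl h3 h4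
    (c.mxo hH h1 ((mx_iv hH').cent ((mx_iv hH).pcore _)) ((maxInv_isPi hH').inf_left _) (inf_le_right.trans (cent_le_norm _)))
    (c.symm.mxo hH h2 ((mx_iv hH').cent ((mx_iv hH).pcore _)) ((maxInv_isPi hH').inf_left _) (inf_le_right.trans (cent_le_norm _)))

theorem b2 (hH : H ∈ maxInvSubgroups K A π) (hH' : H' ∈ maxInvSubgroups K A π) (h1 : piCoreOf {p} H ≠ ⊥) (h2 : piCoreOf {q} H ≠ ⊥)
    (h3 : piCoreOf {p} H ≤ H') (h4 : piCoreOf {q} H ≤ H') : H' ≤ H := by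
  obtain ⟨k1, k2, k3, k4⟩ := c.b2' hH hH' h1 h2 h3 h4
  have k5 := (c.b2' hH' hH (BG.ne_bot_mono h1 k1) (BG.ne_bot_mono h2 k2) k3 k4).1
  exact c.mxo hH h1 (mx_iv hH') (maxInv_isPi hH') (le_antisymm k1 k5 ▸ le_norm_pcore _ _)

/-- Bender's uniqueness lemma -/
theorem b3 (hH : H ∈ maxInvSubgroups K A π) (i : Iv A K X) (h : IsPiSubgroup π X) (h1 : L ≤ piCoreOf {p} H) (h2 : L' ≤ piCoreOf {q} H)
    (h3 : L ≤ X) (h4 : L' ≤ X) (h5 : L ≠ ⊥) (h6 : L' ≠ ⊥) (iL : Iv A K L) (iL' : Iv A K L')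
    (h7 : ∀ Y, Iv A K Y → IsPiSubgroup π Y → Y ≤ C_(L) → Y ≤ H) (h8 : ∀ Y, Iv A K Y → IsPiSubgroup π Y → Y ≤ C_(L') → Y ≤ H) :
    X ≤ H := by
  obtain ⟨H', hH', k⟩ := exists_maxInv_ge i.le h i.n
  obtain ⟨k1, k2, k3, k4⟩ := c.b1 (mx_iv hH') (maxInv_isPi hH') h1 h2 (h3.trans k) (h4.trans k)
    (h7 _ ((mx_iv hH').cent iL) ((maxInv_isPi hH').inf_left _) inf_le_right)
    (h8 _ ((mx_iv hH').cent iL') ((maxInv_isPi hH').inf_left _) inf_le_right)
  have := c.b2 hH' hH (BG.ne_bot_mono h5 k1) (BG.ne_bot_mono h6 k2) k3 k4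
  exact k.trans (maxInv_max hH (mx_iv hH').le (maxInv_isPi hH') (mx_iv hH').n this).le

theorem b4 (hH : H ∈ maxInvSubgroups K A π) (h2 : piCoreOf {q} H ≠ ⊥) (iL : Iv A K L) (h0 : L ≠ ⊥) (h1 : L ≤ piCoreOf {p} H)
    (i : Iv A K X) (h : IsPiSubgroup π X) (hn : X ≤ N_(L)) : X ≤ H := by
  have iO := (mx_iv hH).pcore {p}
  have iQ := (mx_iv hH).pcore {q}
  have pO := pcore_pg c.sp.pr H
  have z0 := pg_center_ne_bot c.sp.pr pO (BG.ne_bot_mono h0 h1)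
  have iW := (iO.cent iO).sup iQ
  have hW : IsPiSubgroup π ((piCoreOf {p} H ⊓ C_(piCoreOf {p} H)) ⊔ piCoreOf {q} H) :=
    (maxInv_isPi hH).of_le (sup_le (inf_le_left.trans (pcore_le _ _)) (pcore_le _ _))
  refine le_sup_left.trans (c.b3 hH (i.sup iW) (c.mc.join' iL h0 (pg_sol c.sp.pr (pg_le pO h1)) i iW hn (le_norm_of_cent
    (sup_le (inf_le_right.trans (cent_anti h1)) ((c.symm.cc H).trans (cent_anti h1)))) h hW) inf_le_left le_rfl
    (le_sup_of_le_right le_sup_left) (le_sup_of_le_right le_sup_right) z0 h2 (iO.cent iO) iQ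
    (fun Y iY hY k => c.mxn hH (iO.cent iO) z0 (inf_le_left.trans (pcore_le _ _))
      (norm_inf (le_norm_pcore _ _) (norm_cent (le_norm_pcore _ _))) iY hY (le_norm_of_cent k))
    fun Y iY hY k => c.symm.mxo hH h2 iY hY (le_norm_of_cent k))

theorem st3 (hH : H ∈ maxInvSubgroups K A π) (h1 : piCoreOf {p} H ≠ ⊥) (h2 : piCoreOf {q} H ≠ ⊥) : P ≤ H := by
  by_contra hn
  have iH := mx_iv hH
  have iQ := iH.pcore {q}
  have pQ := pcore_pg c.sq.pr H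
  have ZH : P ⊓ C_(P) ≤ H := c.mxo hH h1 c.sp.z (c.piP inf_le_left) (le_norm_of_cent (inf_le_right.trans (cent_anti (c.oP iH))))
  have key : ∀ Z, Iv A K Z → Z ≠ ⊥ → Z ≤ P ⊓ C_(P) → piCoreOf {q} H ⊓ C_(Z) = ⊥ := fun Z iZ z0 hZ => by
    by_contra l0
    have iL := iQ.cent iZ
    refine hn (le_sup_left.trans (c.b3 hH (c.sp.iv.sup iL) (c.mc.join' iZ z0 (pg_sol c.sp.pr (pg_le c.sp.pg (hZ.trans inf_le_left)))
      c.sp.iv iL (le_norm_of_cent (cent_symm (hZ.trans inf_le_right))) (le_norm_of_cent inf_le_right) (c.piP le_rfl)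
      (c.symm.pi (pg_le pQ inf_le_left))) le_rfl inf_le_left (le_sup_of_le_left (c.oP iH)) le_sup_right h1 l0 (iH.pcore _) iL
      (fun Y iY hY k => c.mxo hH h1 iY hY (le_norm_of_cent k))
      fun Y iY hY k => c.symm.b4 hH h1 iL l0 inf_le_left iY hY (le_norm_of_cent k)))
  obtain ⟨a, ha, a1, z0⟩ := c.mc.exa c.sp.z (pg_center_ne_bot c.sp.pr c.sp.pg c.p0)
  have iZ := c.mc.c1 c.sp.z ha
  have pZ : IsPGroup p ↥(P ⊓ C_(P) ⊓ C_[a]) := pg_le c.sp.pg (inf_le_left.trans inf_le_left)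
  have nZ : P ⊓ C_(P) ⊓ C_[a] ≤ N_(piCoreOf {q} H) := inf_le_left.trans (ZH.trans (le_norm_pcore _ _))
  have k0 := key _ iZ z0 inf_le_left
  have e := coprime_comm_eq_of_cent_bot nZ (pg_coprime_ne c.sp.pr c.sq.pr pZ pQ c.ne) (Or.inr (pg_sol c.sq.pr pQ)) k0
  have k1 : ⁅P, zpowers a⁆ ≤ C_(piCoreOf {q} H) := c.mc.lemG c.sp.pr c.sp.pg c.sp.iv ha a1 (norm_cent iQ.n) fun b hb m => by
    have iB := c.mc.c1 c.sp.iv hb
    refine cent_symm (e.ge.trans (c.mc.lemF c.mc.f0 c.sq.pr pQ iQ iZ ha a1 inf_le_right (c.nd pZ) nZ hb m iB.n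
      ((inf_le_left.trans inf_le_right).trans (cent_anti inf_le_left)) ?_))
    exact c.mc.cc hb (by rintro rfl; exact m (one_mem _)) (inf_le_left.trans iQ.le) iB.le inf_le_right inf_le_right
  have hn' : zpowers a ≤ N_(P) := (zpowers_le.2 ha).trans c.sp.n
  have iR := c.sp.iv.comm (c.mc.nz ha) hn'
  have k2 := nil_meet_center (pg_nil c.sp.pr c.sp.pg) (comm_le_left hn') (left_le_norm_comm _ _) (c.mc.burn c.sp c.p0 ha a1)
  have k3 := key _ (iR.cent c.sp.iv) k2 (inf_le_inf_right _ (comm_le_left hn'))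
  exact h2 (BG.eq_bot_mono k3 (le_inf le_rfl (cent_symm (inf_le_left.trans k1))))

theorem st2 (hH : H ∈ maxInvSubgroups K A π) (h : piCoreOf {q} H = ⊥) : H ≤ N_(P) := by
  have iH := mx_iv hH
  have sH := c.sol iH (maxInv_isPi hH)
  have e : fittingOf H = piCoreOf {p} H := fit_eq_pcore c.sp.pr ((c.core (maxInv_isPi hH)).trans h)
  have hs := c.mc.syl_inf c.sp iH
  have k := (c.mc.nilm iH sH).hall_normal (le_norm_fit H) hs
  rw [e, sup_eq_right.2 hs.pcore_le] at k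
  by_cases h0 : H ⊓ P = ⊥
  · by_contra k'
    exact fit_ne_bot sH (fun e' => k' (e' ▸ bot_le)) (e.trans (BG.eq_bot_mono h0 hs.pcore_le))
  have iT := iH.inf c.sp.n
  rwa [nil_eq_of_norm_le (pg_nil c.sp.pr c.sp.pg) inf_le_right (le_inf (c.mxn hH iT h0 inf_le_left k (c.sp.iv.norm iT)
    (c.piP inf_le_left) inf_le_right) inf_le_left)] at k

theorem dich (hH : H ∈ maxInvSubgroups K A π) : (piCoreOf {q} H = ⊥ ∧ H ≤ N_(P)) ∨ (piCoreOf {p} H = ⊥ ∧ H ≤ N_(Q)) := by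
  by_cases h1 : piCoreOf {q} H = ⊥
  · exact Or.inl ⟨h1, c.st2 hH h1⟩
  by_cases h2 : piCoreOf {p} H = ⊥
  · exact Or.inr ⟨h2, c.symm.st2 hH h2⟩
  exact absurd ((maxInv_isPi hH).of_le (sup_le (c.st3 hH h2 h1) (c.symm.st3 hH h1 h2))) c.np

theorem dich' (i : Iv A K X) (h : IsPiSubgroup π X) : X ≤ N_(P) ∨ X ≤ N_(Q) := by
  obtain ⟨H, hH, k⟩ := exists_maxInv_ge i.le h i.n
  exact (c.dich hH).imp (fun e => k.trans e.2) fun e => k.trans e.2

theorem cqp : Q ⊓ C_(P) = ⊥ := by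
  have i := c.sp.iv.sup (c.sq.iv.cent c.sp.iv)
  obtain ⟨H, hH, k⟩ := exists_maxInv_ge i.le ((c.piP le_rfl).sup (c.symm.piP inf_le_left) (le_norm_of_cent inf_le_right)) i.n
  rcases c.dich hH with ⟨e, -⟩ | ⟨-, e⟩
  · have := cent_pcore_le c.sp.pr (c.sol (mx_iv hH) (maxInv_isPi hH)) ((c.core (maxInv_isPi hH)).trans e)
    exact BG.eq_bot_mono c.dj (le_inf ((le_inf (le_sup_right.trans k) (inf_le_right.trans (cent_anti (c.oP (mx_iv hH))))).trans
      (this.trans (c.oP (mx_iv hH)))) inf_le_left)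
  · exact absurd ((le_sup_left.trans k).trans e) c.nn

theorem xy : Q ⊓ N_(P) ≤ C_(P ⊓ N_(Q)) :=
  comm_eq_bot.1 (BG.eq_bot_mono c.dj (le_inf ((comm_mono inf_le_right inf_le_left).trans (comm_le_right le_rfl))
    ((comm_mono inf_le_left inf_le_right).trans (comm_le_left le_rfl))))

theorem clA : ¬ P ⊓ C_(P) ≤ N_(Q) := fun hn => by
  obtain ⟨a, ha, a1, z0⟩ := c.mc.exa c.sp.z (pg_center_ne_bot c.sp.pr c.sp.pg c.p0)
  have iZ := c.mc.c1 c.sp.z ha
  have ZP : P ⊓ C_(P) ⊓ C_[a] ≤ P := inf_le_left.trans inf_le_left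
  have pZ := pg_le c.sp.pg ZP
  have nZ : P ⊓ C_(P) ⊓ C_[a] ≤ N_(Q) := inf_le_left.trans hn
  have cZ : P ≤ C_(P ⊓ C_(P) ⊓ C_[a]) := cent_symm (inf_le_left.trans inf_le_right)
  have iC := c.sq.iv.cent iZ
  have k1 : Q ⊓ C_(P ⊓ C_(P) ⊓ C_[a]) ≤ N_(P) := le_sup_right.trans ((c.dich' (c.sp.iv.sup iC) (c.mc.join' iZ z0 (pg_sol c.sp.pr pZ)
    c.sp.iv iC (le_norm_of_cent cZ) (le_norm_of_cent inf_le_right) (c.piP le_rfl) (c.symm.piP inf_le_left))).resolve_right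
      fun k => c.nn (le_sup_left.trans k))
  have e := coprime_comm_sup_cent nZ (pg_coprime_ne c.sp.pr c.sq.pr pZ c.sq.pg c.ne) (Or.inr (pg_sol c.sq.pr c.sq.pg))
  refine c.mc.supp c.sp c.p0 ha a1 fun b hb m => ?_
  have b1 : b ≠ 1 := by rintro rfl; exact m (one_mem _)
  have iB := c.mc.c1 c.sp.iv hb
  have iB' := c.mc.c1 c.sq.iv hb
  have k2 := c.mc.cc hb b1 iB'.le iB.le inf_le_right inf_le_right
  have k3 : P ⊓ C_[b] ≤ N_(Q) := le_sup_left.trans ((c.dich' (iB.sup iB') ((c.piP inf_le_left).sup (c.symm.piP inf_le_left)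
    (le_norm_of_cent k2))).resolve_left fun k => z0 (BG.eq_bot_mono c.symm.cqp (le_inf ZP (c.mc.lemF1 c.mc.f0 c.sq.pr c.sq.pg c.sq.iv iZ
      ha a1 inf_le_right (c.nd pZ) nZ hb m ((le_inf inf_le_left (le_sup_right.trans k)).trans (c.xy.trans (cent_anti (le_inf ZP nZ))))))))
  refine BG.eq_bot_mono c.symm.cqp (le_inf inf_le_left (cent_symm (e.ge.trans (sup_le ?_ ?_))))
  · exact c.mc.lemF c.mc.f0 c.sq.pr c.sq.pg c.sq.iv iZ ha a1 inf_le_right (c.nd pZ) nZ hb m iB.n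
      (cent_symm (inf_le_left.trans cZ)) k2
  · exact (le_inf inf_le_left k1).trans (c.xy.trans (cent_anti (le_inf inf_le_left k3)))

theorem clB : Q ⊓ N_(P) = ⊥ := by
  by_contra h0
  have key : ∀ B T, Iv A K B → B ≠ ⊥ → B ≤ Q → Iv A K T → T ≤ P → T ≤ C_(B) → T ≤ N_(Q) := fun B T iB b0 BQ iT TP k =>
    le_sup_left.trans ((c.dich' (iT.sup c.sq.z) (c.mc.join' iB b0 (pg_sol c.sq.pr (pg_le c.sq.pg BQ)) iT c.sq.z (le_norm_of_cent k)
      (le_norm_of_cent (inf_le_right.trans (cent_anti BQ))) (c.piP TP) (c.symm.piP inf_le_left))).resolve_left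
        fun k => c.symm.clA (le_sup_right.trans k))
  obtain ⟨a, ha, a1, x0⟩ := c.mc.exa (c.sq.iv.norm c.sp.iv) h0
  have iX := c.mc.c1 (c.sq.iv.norm c.sp.iv) ha
  have XQ : Q ⊓ N_(P) ⊓ C_[a] ≤ Q := inf_le_left.trans inf_le_left
  refine c.mc.supp c.sq c.symm.p0 ha a1 fun b hb m => ?_
  by_contra q0
  have iB := c.mc.c1 c.sp.iv hb
  have iB' := c.mc.c1 c.sq.iv hb
  have k := key _ _ iB' q0 inf_le_left iB inf_le_left
    (c.mc.cc hb (by rintro rfl; exact m (one_mem _)) iB.le iB'.le inf_le_right inf_le_right)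
  exact x0 (BG.eq_bot_mono c.cqp (le_inf XQ (c.mc.lemF1 c.mc.f0 c.sp.pr c.sp.pg c.sp.iv iX ha a1 inf_le_right
    (c.symm.nd (pg_le c.sq.pg XQ)) (inf_le_left.trans inf_le_right) hb m
    ((le_inf inf_le_left k).trans (c.symm.xy.trans (cent_anti inf_le_left))))))

theorem n2 (i : Iv A K H) (hs : Group.IsSolvable H) (h1 : H ⊓ P ≠ ⊥) (h2 : H ⊓ Q ≠ ⊥) : False := by
  have i1 := i.inf c.sp.n
  have i2 := i.inf c.sq.n
  rcases c.dich' (i1.sup i2) (c.mc.join i hs i1.n i2.n inf_le_left inf_le_left (c.piP inf_le_right) (c.symm.piP inf_le_right)) with k | k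
  · exact h2 (BG.eq_bot_mono c.clB (le_inf inf_le_right (le_sup_right.trans k)))
  · exact h1 (BG.eq_bot_mono c.symm.clB (le_inf inf_le_right (le_sup_left.trans k)))

/-- invariant `p'`-subgroups normalising an invariant `p`-subgroup centralise it -/
theorem act (iT : Iv A K T) (hT : IsPGroup p T) (i : Iv A K X) (h : ¬ p ∣ Nat.card X) (hn : X ≤ N_(T)) : X ≤ C_(T) :=
  c.mc.gen i fun a ha a1 => by
    by_contra k
    refine c.mc.supp c.sq c.symm.p0 ha a1 fun b hb m => ?_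
    by_contra q0
    have b1 : b ≠ 1 := by rintro rfl; exact m (one_mem _)
    refine c.n2 (c.mc.c1 c.mc.top hb) (sol_of_abelian (c.mc.ab b hb b1)) (fun e => k ?_)
      (BG.ne_bot_mono q0 (le_inf (inf_le_inf_right _ c.sq.syl.le) inf_le_left))
    exact c.mc.lemF1 c.mc.f0 c.sp.pr hT iT (c.mc.c1 i ha) ha a1 inf_le_right (not_dvd_of_le h inf_le_left) (inf_le_left.trans hn) hb m
      ((BG.eq_bot_mono e (le_inf (inf_le_inf_right _ iT.le) (inf_le_left.trans (c.mc.le_sy c.sp iT hT)))).le.trans bot_le)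

/-- half of the transitivity argument -/
theorem half (hS : Sy s A K S) (ne : s ≠ p) (h : IsPiSubgroup {p, s} (P ⊔ S)) : P ⊓ N_(S ⊓ C_(S)) ≠ ⊥ := by
  intro e
  have e1 : P ⊓ N_(S) = ⊥ := BG.eq_bot_mono e (inf_le_inf_left _ (norm_inf le_rfl (norm_cent le_rfl)))
  have i := c.sp.iv.sup hS.iv
  have hd : ∀ t : ℕ, t.Prime → t ∣ Nat.card ↥(P ⊔ S) → t = p ∨ t = s := fun t ht k => by simpa using h t ht k
  have sH := H22.sol_of_two c.sp.pr hS.pr hd
  have s1 : IsSylowIn s S (P ⊔ S) := hS.syl.sub le_sup_right i.le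
  have k1 := (c.mc.nilm i sH).hall_normal (le_norm_fit _) s1
  have k2 := sylow_frattini hS.pr (s1.sub le_sup_right (sup_le (fit_le _) le_sup_right)) (sup_le (fit_le _) le_sup_right) k1
  have iN := i.norm hS.iv
  have k3 : (P ⊔ S) ⊓ N_(S) ≤ S := s1.le_of_norm_pg' hS.pr ((isPi_singleton hS.pr).1 fun t ht k =>
    (hd t ht (k.trans (card_dvd inf_le_left))).resolve_left fun e' => (c.mc.syl_inf c.sp iN).ne_bot' c.sp.pr (e' ▸ k)
      (BG.eq_bot_mono e1 (le_inf inf_le_right (inf_le_left.trans inf_le_right)))) inf_le_left inf_le_right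
  have k4 : fittingOf (P ⊔ S) ≤ piCoreOf {p} (P ⊔ S) ⊔ S := nil_le_of_pcores (fit_nil _) fun t ht k => by
    rw [pcore_fit ht]
    rcases hd t ht (k.trans (card_dvd (fit_le _))) with rfl | rfl
    · exact le_sup_left
    · exact le_sup_of_le_right s1.pcore_le
  have k5 : P ≤ piCoreOf {p} (P ⊔ S) ⊔ S := le_sup_left.trans (k2.ge.trans (sup_le (sup_le k4 le_sup_right) (le_sup_of_le_right k3)))
  have nS : S ≤ N_(piCoreOf {p} (P ⊔ S)) := le_sup_right.trans (le_norm_pcore _ _)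
  have k6 : P = piCoreOf {p} (P ⊔ S) := by
    have := dedekind (c.oP i) (Or.inl nS)
    rwa [inf_eq_left.2 k5, pg_inf_eq_bot c.sp.pr c.sp.pg (pg_not_dvd c.sp.pr hS.pr hS.pg ne.symm), sup_bot_eq] at this
  have k7 := c.act c.sp.iv c.sp.pg hS.z (not_dvd_of_le (pg_not_dvd c.sp.pr hS.pr hS.pg ne.symm) inf_le_left)
    (inf_le_left.trans (k6 ▸ nS))
  exact c.p0 (BG.eq_bot_mono e (le_inf le_rfl (le_norm_of_cent (cent_symm k7))))

theorem tr (hS : Sy s A K S) (h0 : S ≠ ⊥) (ne : s ≠ p) (ne' : s ≠ q) (h : IsPiSubgroup {p, s} (P ⊔ S)) :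
    ¬ IsPiSubgroup {q, s} (Q ⊔ S) := fun h' =>
  c.n2 (c.mc.top.norm hS.z) (c.mc.loc hS.z (pg_center_ne_bot hS.pr hS.pg h0) (sol_of_abelian (abelian_center S)))
    (BG.ne_bot_mono (c.half hS ne h) (le_inf (le_inf (inf_le_left.trans c.sp.syl.le) inf_le_right) inf_le_left))
    (BG.ne_bot_mono (c.symm.half hS ne' h') (le_inf (le_inf (inf_le_left.trans c.sq.syl.le) inf_le_right) inf_le_left))

theorem oth {t : ℕ} (i : Iv A K H) (hs : Group.IsSolvable H) (h1 : H ⊓ P ≠ ⊥) (hT : Sy t A K T) (t0 : H ⊓ T ≠ ⊥) :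
    NP r t q {t, q} A K T Q := by
  have tq : t ≠ q := by
    rintro rfl
    exact c.n2 i hs h1 (BG.ne_bot_mono t0 (inf_le_inf_left _ (c.mc.le_sy c.sq hT.iv hT.pg)))
  refine ⟨c.mc, tq, by simp, hT, c.sq, fun k => ?_⟩
  by_cases tp : t = p
  · subst tp
    exact c.np ((k.mono fun x hx => (c.mem x).2 (by simpa using hx)).of_le (sup_le_sup_right (c.mc.le_sy hT c.sp.iv c.sp.pg) _))
  · refine c.tr hT (BG.ne_bot_mono t0 inf_le_right) tp tq ?_ (by rwa [Set.pair_comm, sup_comm])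
    by_contra k'
    exact NP.n2 (π := {p, t}) ⟨c.mc, Ne.symm tp, by simp, c.sp, hT, k'⟩ i hs h1 t0

theorem nil (i : Iv A K H) (hs : Group.IsSolvable H) (h1 : H ⊓ P ≠ ⊥) : Group.IsNilpotent H := by
  refine nil_of_sylow_normal fun t ht hd => ?_
  obtain ⟨T, hT⟩ := c.mc.exs ht
  have s1 := c.mc.syl_inf hT i
  refine ⟨_, s1, ?_⟩
  have k1 := (c.mc.nilm i hs).hall_normal (le_norm_fit _) s1
  have n1 : Group.IsNilpotent (piCoreOf {t}ᶜ (fittingOf H)) := nil_of_le (fit_nil H) (pcore_le _ _)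
  have k2 : piCoreOf {t}ᶜ (fittingOf H) ≤ C_(H ⊓ T) := nil_le_of_pcores n1 fun v hv hd' => by
    obtain ⟨U, hU⟩ := c.mc.exs hv
    have vt : v ≠ t := by rintro rfl; exact pcore_not_dvd hv _ hd'
    have u0 : H ⊓ U ≠ ⊥ := (c.mc.syl_inf hU i).ne_bot' hv (hd'.trans (card_dvd ((pcore_le _ _).trans (fit_le _))))
    have := (c.oth i hs h1 hU u0).act (i.pcore {v}) (pcore_pg hv H) (i.inf hT.n) (pg_not_dvd hv ht (s1.pg ht) vt)
      (inf_le_left.trans (le_norm_pcore _ _))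
    exact ((nil_pcore_mono _ (fit_nil H) (pcore_le _ _)).trans (pcore_fit hv H).le).trans (cent_symm this)
  have k3 : fittingOf H ≤ piCoreOf {t}ᶜ (fittingOf H) ⊔ (H ⊓ T) :=
    (nil_dprod {t} (fit_nil H)).sdprod.isComplIn.sup.ge.trans (sup_le (le_sup_of_le_right ((pcore_fit ht H).le.trans s1.pcore_le))
      le_sup_left)
  have k4 : Group.IsNilpotent ↥(fittingOf H ⊔ (H ⊓ T)) :=
    nil_of_le (nil_sup_of_cent n1 (pg_nil ht (s1.pg ht)) k2) (sup_le k3 le_sup_right)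
  exact k1.trans (nil_hall_norm k4 (s1.sub le_sup_right (sup_le (fit_le _) inf_le_left)))

theorem fin (h2 : p ≠ 2) : False := by
  have := Fact.mk c.sp.pr
  obtain ⟨P₀, e⟩ := c.sp.syl.exists_sylow c.sp.pr
  have eW : (centerThompsonOf p (P₀ : Subgroup K)).map K.subtype = centerThompsonOf p P := by
    rw [← H17.centerThompsonOf_map _ K.subtype_injective.injOn, e]
  have iW : Iv A K (centerThompsonOf p P) := ⟨(H17.centerThompsonOf_le _ _).trans c.sp.syl.le,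
    c.sp.n.trans (H17.normalizer_le_normalizer_centerThompsonOf _ _)⟩
  have hs := c.mc.loc iW (H22.zj_ne_bot c.sp.pr c.sp.pg c.p0) (pg_sol c.sp.pr (pg_le c.sp.pg (H17.centerThompsonOf_le _ _)))
  have hn := c.nil (c.mc.top.norm iW) hs (BG.ne_bot_mono c.p0 (le_inf (le_inf c.sp.syl.le
    ((le_norm P).trans (H17.normalizer_le_normalizer_centerThompsonOf _ _))) le_rfl))
  have hn' : Group.IsNilpotent N_(centerThompsonOf p (P₀ : Subgroup K)) :=
    have := nil_of_le hn (le_inf (map_subtype_le _) (eW ▸ map_le_norm K.subtype le_rfl))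
    Group.nilpotent_of_mulEquiv (equivMapOfInjective _ _ K.subtype_injective).symm
  obtain ⟨P₁, N, hN, k⟩ := (Agent.S0117.result h2 P₀).2 (H03.hasNPC_of_p'core_hall c.sp.pr (nil_pcore_hall _ hn'))
  have k1 : ¬ p ∣ Nat.card (N.map K.subtype) := by
    rw [card_subtype]; exact (Nat.Prime.coprime_iff_not_dvd c.sp.pr).1 (H03.coprime_card_of_isComplement'_sylow k).symm
  have k2 : N.map K.subtype ≤ piCoreOf {p}ᶜ K := le_pcore_p' c.sp.pr k1 (map_subtype_le _) (by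
    have := map_le_norm K.subtype (show (⊤ : Subgroup K) ≤ N_(N) by rw [normalizer_eq_top])
    rwa [← MonoidHom.range_eq_map, range_subtype] at this)
  rcases c.mc.sim _ (pcore_le {p}ᶜ K) (le_norm_pcore _ _) (norm_pcore _ c.mc.nk) with e' | e'
  · rw [e', le_bot_iff, map_eq_bot_iff_of_injective _ K.subtype_injective] at k2
    subst k2
    have := isComplement'_bot_left.1 k
    have hs := pg_sol c.sp.pr P₁.2
    exact c.mc.ns (Group.isSolvable_of_surjective (f := (P₁ : Subgroup K).subtype) fun x => ⟨⟨x, this ▸ mem_top x⟩, rfl⟩)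
  · exact c.p0 (pg_eq_bot c.sp.pr c.sp.pg (not_dvd_of_le (pcore_not_dvd c.sp.pr K) (c.sp.syl.le.trans e'.ge)))
end NP

theorem MC.false (c : MC r A K) : False := by
  choose S hS using fun p : Nat.Primes => c.exs p.2
  have k : ∀ p q : Nat.Primes, H16.Permutes (S p) (S q) := fun p q => by
    by_cases e : p = q
    · exact e ▸ H16.permutes_of_le_normalizer (le_norm _)
    have ne : (p : ℕ) ≠ q := fun h => e (Subtype.ext h)
    have h : IsPiSubgroup {(p : ℕ), (q : ℕ)} (S p ⊔ S q) := by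
      by_contra h
      have c' : NP r p q {(p : ℕ), (q : ℕ)} A K (S p) (S q) := ⟨c, ne, by simp, hS p, hS q, h⟩
      by_cases h2 : (p : ℕ) = 2
      · exact c'.symm.fin (h2 ▸ ne.symm)
      · exact c'.fin h2
    have l := sup_le (hS p).syl.le (hS q).syl.le
    have h1 : IsPiHallOf {(p : ℕ)} (S p) (S p ⊔ S q) := (hS p).syl.sub le_sup_left l
    have h2 : IsPiHallOf {(p : ℕ)}ᶜ (S q) (S p ⊔ S q) := ((hS q).syl.sub le_sup_right l).congr fun t ht hd => by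
      rcases (show t = p ∨ t = q by simpa using h t ht hd) with rfl | rfl
      · simpa using ne
      · simpa using ne.symm
    exact H16.coe_eq_mul_of_card le_sup_left le_sup_right (by rw [h1.isPi.inf_eq_bot h2.isPi, card_bot, mul_one, h1.card_mul h2])
  choose T hT using fun p : Nat.Primes => (hS p).syl.exists_sylow p.2
  refine c.ns (H16.solvable_of_sylowSystem T fun p q => H16.permutes_iff.2 fun b hb a ha => ?_)
  obtain ⟨a', ha', b', hb', e⟩ := H16.permutes_iff.1 (k p q) b (hT q ▸ ⟨b, hb, rfl⟩) a (hT p ▸ ⟨a, ha, rfl⟩)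
  rw [← hT] at ha' hb'
  obtain ⟨a', ha', rfl⟩ := ha'
  obtain ⟨b', hb', rfl⟩ := hb'
  exact ⟨a', ha', b', hb', Subtype.ext e⟩

theorem Ctx.quo (c : Ctx r A K) (h1 : N ≤ K) (h3 : A ≤ N_(N)) : Ctx r (quo N A) (quo N K) where
  pr := c.pr
  el := ⟨le_top, elem_quo N c.el.elemAb, by
    rw [card_quo_of_disj h3 (BG.inf_eq_bot_of_coprime (c.cop le_rfl h1).symm), c.el.card]⟩
  nk := quo_le_norm N c.nk
  nd := not_dvd_card_quo N c.nd
  ab x hx h0 := by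
    obtain ⟨a, ha, hn, rfl⟩ := mem_quo.1 hx
    have a1 : a ≠ 1 := by rintro rfl; exact h0 (qmk_eq_one.2 (one_mem _))
    rw [← quo_cent1_coprime hn h1 (by rw [← BG.card_zpowers]; exact c.cop (zpowers_le.2 ha) h1)]
    exact abelian_quo N (c.ab a ha a1)

theorem main : ∀ (n : ℕ) (G : Type u) [Group G] [Finite G] (A K : Subgroup G), Nat.card K = n → Ctx r A K → Group.IsSolvable K := by
  intro n
  induction n using Nat.strong_induction_on with
  | _ n ih =>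
  intro G _ _ A K hn c
  by_contra ns
  have h1 : ∀ H < K, A ≤ N_(H) → Group.IsSolvable H := fun H hH k => ih _ (hn ▸ card_lt hH) G A H rfl
    ⟨c.pr, c.el, k, not_dvd_of_le c.nd hH.le, fun a ha a1 => abelian_of_le (c.ab a ha a1) (inf_le_inf_right _ hH.le)⟩
  refine MC.false ⟨c, h1, fun N k1 k2 k3 => ?_, ns⟩
  by_contra! k
  exact ns (sol_of_quo k2 (sol_of_le (h1 N (lt_of_le_of_ne k1 k.2) k3) inf_le_left)
    (ih _ (hn ▸ card_quo_lt' k2 k1 k.1) _ _ _ rfl (c.quo k1 k3)))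

end H23.Mt
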