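import Cfsg.Agent.H23.YZ
import Cfsg.Agent.H21.YM
import Cfsg.Agent.H29.YP2
import Cfsg.Agent.H10.YP7
import Cfsg.Agent.H27.YU
import Cfsg.Agent.H11.YS
import Cfsg.Agent.H19.YP2

/-! S5569 from the part `Pa`. -/

set_option autoImplicit false
open Cfsg

namespace Cfsg.Agent.H23.Y
universe u

theorem fin2 (Pa : PaStmt.{u}) {G : Type u} [Group G] [Finite G] [IsSimpleGroup G] (hG : ¬ IsMulCommutative G) (z : G)
    (hJ : IsOfJankoFourTypeAt z) (t : G) (ht : orderOf t = 2) (hnc : ¬ IsConj z t) :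
    ∃ V K : Subgroup G, V ≤ Subgroup.centralizer ({t} : Set G) ∧ K ≤ Subgroup.centralizer ({t} : Set G) ∧
    Subgroup.centralizer ({t} : Set G) ≤ Subgroup.normalizer (V : Set G) ∧ Cfsg.IsElementaryAbelian 2 V ∧ Nat.card ↥V = 2 ^ 11 ∧
    K ⊓ V = ⊥ ∧ K ⊔ V = Subgroup.centralizer ({t} : Set G) ∧ Nonempty (↥K ≃* MulAut ↥Cfsg.Spor.M22) :=
  fin @_root_.H21.YM.m _root_.H29.YP.p2 _root_.H10.YP7.p7 _root_.H27.YU.au _root_.H11.YS.sg Cfsg.Agent.H19.YP2.pb2 Pa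
    hG z hJ t ht hnc

end Cfsg.Agent.H23.Y
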