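import Cfsg.Agent.H23.Y1
import Cfsg.Agent.S5567
import Cfsg.Agent.S5568

/-! Assembly of S5569 from the parts of `H23.Y0`, `H23.Y1`. -/

set_option autoImplicit false
open Cfsg BG Subgroup H01.XS Cfsg.Agent.H06.J H20.FtW Cfsg.Agent.H23.K
open scoped Pointwise

namespace Cfsg.Agent.H23.Y
universe u

theorem fin (Ms : MStmt.{u}) (P2 : P2Stmt.{u}) (P7 : P7Stmt) (Au : AuStmt) (Sg' : SgStmt.{u}) (Pb : Pb2Stmt.{u})
    (Pa : PaStmt.{u}) {G : Type u} [Group G] [Finite G] [sG : IsSimpleGroup G] (hG : ¬ IsMulCommutative G) (z : G)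
    (hJ : IsOfJankoFourTypeAt z) (t : G) (ht : orderOf t = 2) (hnc : ¬ IsConj z t) :
    ∃ V K : Subgroup G, V ≤ Subgroup.centralizer ({t} : Set G) ∧ K ≤ Subgroup.centralizer ({t} : Set G) ∧
    Subgroup.centralizer ({t} : Set G) ≤ Subgroup.normalizer (V : Set G) ∧ Cfsg.IsElementaryAbelian 2 V ∧ Nat.card ↥V = 2 ^ 11 ∧
    K ⊓ V = ⊥ ∧ K ⊔ V = Subgroup.centralizer ({t} : Set G) ∧ Nonempty (↥K ≃* MulAut ↥Cfsg.Spor.M22) := by
  have u := @_root_.H27.KU.u _ _ _ (Cfsg.Agent.S5566.result hG ⟨z, hJ⟩)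
  have r7 := Cfsg.Agent.S5567.result hG ⟨z, hJ⟩
  have r8 := Cfsg.Agent.S5568.result hG z hJ
  obtain ⟨P, hJ⟩ := hJ
  obtain ⟨Q, V', _, _, _, Γ, _, _, f, π, ν, T, d, M, β, q, s, dc, ou, ρ, ρs, ρk⟩ := @_root_.H27.KB.b _ _ _ z P hJ
  obtain ⟨K₀, Y₀, h0⟩ := _root_.H10.KH.h2
  have g := s.gm
  obtain ⟨K, Y, hk, dK⟩ := Cfsg.Agent.H02.KL.l2 ρ g.d3 g.dM g.Md dc ρs ρk h0
  obtain ⟨B, p⟩ := _root_.H21.JU1.u1 g hk.hx hk.KM dK
  have pi := _root_.H18.JU.u2 g hk.hx hk.KM p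
  obtain ⟨A, Az, A2, cA, AY, mA⟩ := _root_.H26.JE.e s hk.hx hk.KM p
  obtain ⟨δ, δz, δd, δ3⟩ := _root_.H26.JE.exδ s
  have x : Cx s K Y B A δ := ⟨hk, dK, p, pi, _root_.H22.JU.u3 g hk.hx hk.KM dK p pi, Az, A2, cA, AY, mA, u, δz, δd, δ3, ou⟩
  have c : C2 s Y B A δ := _root_.H26.KX.x s K Y B A δ x
  have l := s.md.lx
  have fu : ∃ m ∈ N_(A), m * z * m⁻¹ ≠ z := _root_.H14.KF.f s K Y B A δ x c sG hG
  obtain ⟨O1, O2, pB, c1, c2, t1, t2⟩ := _root_.H09.KO.o s K Y B A δ x c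
  obtain ⟨E, F', pA, cE, cF, zE, tE, tF, iE⟩ := _root_.H28.KC.c s K Y B A δ x c (_root_.H21.KG.G s K Y B A δ x)
  have nM : ∀ m ∈ N_(A), ∀ y ∈ A, m * y * m⁻¹ ∈ A := fun m i y j => (mem_normalizer_iff.1 i y).1 j
  have zB : z ∈ s.md.pull B := ⟨l.aes.mem, s.md.zz ▸ zero_mem _⟩
  have BA : s.md.pull B ≤ A := c.e3 ▸ inf_le_left
  have QN : Q ≤ N_(A) := fun y o => (c.mN y (l.le o)).2 fun v i => by rwa [(s.ker y (l.le o)).2 o, g.one]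
  have zc : ∀ y ∈ C_[z], y * z = z * y := fun y o => mem_cent1.1 o
  have ob : Ob A N_(A) (s.md.pull B) z O1 O2 E F' := by
    refine ⟨A2, cA, le_normalizer, nM, fun m _ => c.cen m, l.z1, zB, BA, by rw [s.md.card_pull, p.cB], fun m i j y o => ?_,
      ⟨Q, QN, IsPGroup.of_card (n := 13) s.card, fun y _ k => l.cz k⟩, fun t i j k => ?_, c.cN, pB, c1, c2, t1, t2, pA, cE,
      cF, zE, tE, tF, fun y i j => ?_, fu, fun k => ?_⟩
    · exact c.e3.le ⟨nM m i y (BA o), (mem_normalizer_iff.1 (l.norm (mem_cent1.2 (mul_inv_eq_iff_eq_mul.1 j))) y).1 o.1⟩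
    · by_contra n
      refine (l.cz fun r o => (l.cm o i.1).resolve_right fun w => n ⟨r, QN o, ?_, ?_⟩).elim j k
      · rw [zc r (l.le o), mul_inv_cancel_right]
      · rw [w, mul_inv_cancel_right, zc t (l.le i.1)]
    · obtain ⟨r, rA, rδ, w⟩ := c.YA _ (AY y i)
      refine ⟨r, iE r rA rδ fun o => j (c.e3.le ⟨i, (s.ker y (Az i)).1 (w ▸ (s.ker r (Az rA)).2 o.1)⟩),
        c.e3.le ⟨mul_mem rA i, (s.ker _ (Az (mul_mem rA i))).1 ?_⟩⟩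
      rw [_root_.H26.JE.mul s r (Az rA) y (Az i), w, hk.hx.Y2 _ (AY y i)]
    · obtain ⟨m, i, j⟩ := fu
      exact j (_root_.H22.KE.e s K Y B A δ x c k m i)
  obtain ⟨cf, eD, cN⟩ := _root_.H07.KN.n ob (_root_.H11.K89.n89 A2 cA ob.AM nM ob.cen)
  have kb := Cfsg.Agent.H02.FzK.k cf
  have nb := _root_.H08.FzN.n cf kb
  obtain ⟨Ω, τ, σ, r⟩ := _root_.H28.FzT.t cf nb (_root_.H04.FzX.x cf kb nb)
  obtain ⟨e, he⟩ := _root_.H25.Fz.s cf nb r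
  obtain ⟨⟨nA, iso⟩, f2⟩ := _root_.H10.FzF.f e cf kb nb r he
  have eA : EA A := A2
  have nD : ∀ y ∈ DD A N_(A) z, ¬ IsConj z y := fun y i j => by
    obtain ⟨a, rfl⟩ := isConj_iff.1 j
    exact i.2.2 (fus u eA cA (BA zB) i.1)
  have inQ : ∀ y ∈ Q, y * y = 1 → ∃ a, a * y * a⁻¹ ∈ A := fun y i j => by
    obtain ⟨t0, d0, b0⟩ := cf.exD
    obtain ⟨x0, b1, d1, n1, n2⟩ := cf.exZ
    obtain ⟨k, o⟩ := Ms g hk.hx hk.KM hk.iK p pi ⟨_, b0.2, _, b1.2,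
      fun w => ((s.md.ker _ b0.1).1 w).elim d0.2.1 fun w' => cf.zD (w' ▸ d0),
      fun w => ((s.md.ker _ b1.1).1 w).elim n1 n2, fun k w => by
        obtain ⟨h, hz, rfl⟩ := s.sur k
        obtain ⟨m, -, em⟩ := cf.trZ x0 (BA b1) n1 d1
        have c0 : IsConj z x0 := isConj_iff.2 ⟨m, em⟩
        rw [s.act h hz t0 b0.1] at w
        have c1 : IsConj t0 (h * t0 * h⁻¹) := isConj_iff.2 ⟨h, rfl⟩
        rcases s.md.eq ((mem_normalizer_iff.1 (l.norm hz) t0).1 b0.1) b1.1 w with w | w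
        · exact nD t0 d0 (c0.trans (w ▸ c1.symm))
        · obtain ⟨m', -, -, e'⟩ := ob.Bz x0 b1 n1 n2
          rw [w, ← zc x0 (l.le b1.1), ← e'] at c1
          exact nD t0 d0 ((c0.trans (isConj_iff.2 ⟨m', rfl⟩)).trans c1.symm)⟩ (ν y) ((s.sq y i).2 j)
    obtain ⟨h, hz, rfl⟩ := s.sur k
    rw [s.act h hz y i] at o
    exact ⟨h, BA ⟨(mem_normalizer_iff.1 (l.norm hz) y).1 i, o⟩⟩
  have inY : ∀ y ∈ C_[z], y * y = 1 → π y ∈ Y → ∃ a, a * y * a⁻¹ ∈ A := fun y i j k => by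
    by_cases n1 : y ∈ Q
    · exact inQ y n1 j
    by_cases n2 : y ∈ A
    · exact ⟨1, by simpa using n2⟩
    obtain ⟨a1, a2, a3, a4, c0, cA0, cδ, cB0, a5⟩ := Pa s K Y B A δ x c (_root_.H21.KG.G s K Y B A δ x) y i j k n1 n2
    have yN : y ∈ N_(A) := (c.mN y i).2 fun v o => by rwa [(p.mB v).1 o _ k]
    have yi : y⁻¹ = y := inv_eq_of_mul_eq_one_right j
    obtain ⟨c', e', d'⟩ : ∃ c', (c' = c0 ∨ c' = c0 * z) ∧ c' ∈ DD A N_(A) z :=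
      (eD c0 (iE c0 cA0 cδ cB0)).elim (fun o => ⟨_, .inl rfl, o⟩) fun o => ⟨_, .inr rfl, o⟩
    obtain ⟨h, hN, hA, h7, hb⟩ := Sg' e P7 cf r he cN yN j (lt_of_lt_of_le (by norm_num) ((a5 c' e').trans
      (Set.ncard_le_ncard (by
        rintro _ ⟨o, w, wQ, rfl⟩
        exact ⟨cf.Dc w (QN wQ) _ d', o⟩))))
    obtain ⟨w, wW, w'⟩ := Pb cf r yN j a1 (inf_le_inf_right _ BA) a2 (fun a o => by
      have o' := nM y yN a o
      refine ⟨c.e3.le ⟨mul_mem o o', (s.ker _ (Az (mul_mem o o'))).1 ?_⟩, mem_cent1.2 ?_⟩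
      · rw [_root_.H26.JE.mul s _ (Az o) _ (Az o'), _root_.H26.JE.mul s _ (mul_mem i (Az o)) _ (inv_mem i),
          _root_.H26.JE.mul s _ i _ (Az o), _root_.H26.JE.inv s _ i, cm2 hk.hx.Y2 k (AY a o), mul_inv_cancel_right,
          hk.hx.Y2 _ (AY a o)]
      · rw [show y * (a * (y * a * y⁻¹)) = y * a * y⁻¹ * (y * y) * a * (y * y)⁻¹ * y by group, j, inv_one, mul_one, mul_one,
          eA.comm o' o]) c.cN hN hA h7 hb
    have fin : ∀ a b, a * y * a⁻¹ = y * b → b ∈ A ⊓ C_[y] → b ∉ s.md.pull B → ∃ a, a * y * a⁻¹ ∈ A := fun a b e1 e2 e3 => by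
      obtain ⟨a', o⟩ := inQ _ (e1 ▸ a4 b e2 e3) (sq_conj j a)
      exact ⟨a' * a, by rwa [show a' * a * y * (a' * a)⁻¹ = a' * (a * y * a⁻¹) * a'⁻¹ by group]⟩
    obtain ⟨b, eb⟩ : ∃ b, b = y⁻¹ * (h * y * h⁻¹) := ⟨_, rfl⟩
    rw [← eb] at hb
    have e1 : h * y * h⁻¹ = y * b := by rw [eb]; group
    have bc : b * y = y * b := by
      have := sq_conj j h
      rw [e1] at this
      have bi : b⁻¹ = b := inv_eq_of_mul_eq_one_right (A2 b hb)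
      rw [eq_inv_of_mul_eq_one_left this, mul_inv_rev, bi, yi]
    by_cases o : b ∈ s.md.pull B
    · obtain ⟨r', -, e2⟩ := a3 w wW
      have wA := nM h hN w (BA wW.1)
      have wc : h * w * h⁻¹ * y = y * (h * w * h⁻¹) := by
        have e3 : h * w * h⁻¹ * (y * b) = y * b * (h * w * h⁻¹) := by
          rw [← e1, show h * w * h⁻¹ * (h * y * h⁻¹) = h * (w * y) * h⁻¹ by group, mem_cent1.1 wW.2]; group
        rw [mul_assoc y b, eA.comm hb wA, ← mul_assoc, ← mul_assoc y] at e3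
        exact mul_right_cancel e3
      refine fin (h * r') (b * (h * w * h⁻¹)) ?_ (mul_mem ⟨hb, mem_cent1.2 bc⟩ ⟨wA, mem_cent1.2 wc⟩) fun o' =>
        w' ⟨(mul_mem_cancel_left o).1 o', mem_cent1.2 wc⟩
      rw [show h * r' * y * (h * r')⁻¹ = h * (r' * y * r'⁻¹) * h⁻¹ by group, e2, ← mul_assoc y, ← e1]; group
    · exact fin h b e1 ⟨hb, mem_cent1.2 bc⟩ o
  have t2 : t * t = 1 := by rw [← pow_two, ← ht, pow_orderOf_eq_one]
  obtain ⟨g0, tA⟩ : ∃ a, a * t * a⁻¹ ∈ A := by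
    obtain ⟨T0, lT⟩ := (IsPGroup.of_card (p := 2) (n := 1) (G := zpowers t) (by rw [Nat.card_zpowers, ht]; rfl)).exists_le_sylow
    obtain ⟨a, -, la⟩ := sylow_Jsub Nat.prime_two (isSylowIn_top Nat.prime_two T0) eA.pg le_top
    have tT := lT (mem_zpowers t)
    have e1 : cj t (cj a A) = cj a A := (u T0 T0.2).2 _ (fun y o => by
      obtain ⟨y, o', rfl⟩ := mem_cj'.1 o
      exact mul_mem (mul_mem tT (la o')) (inv_mem tT)) _ la ((eA.cj a).cj t) (eA.cj a)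
      ((BG.card_cj _ _).trans ((BG.card_cj a A).trans cA)) ((BG.card_cj a A).trans cA)
    have tN : a⁻¹ * t * a ∈ N_(A) := mem_normalizer_fintype fun y o => by
      have := mem_cj.1 (e1.le (conj_mem_cj t (conj_mem_cj a o)))
      rwa [show a⁻¹ * t * a * y * (a⁻¹ * t * a)⁻¹ = a⁻¹ * (t * (a * y * a⁻¹) * t⁻¹) * a by group]
    have s2 : a⁻¹ * t * a * (a⁻¹ * t * a) = 1 := by simpa using sq_conj t2 a⁻¹
    obtain ⟨g1, p1, pQ, n1, nA', e2⟩ := P2 (A.subgroupOf N_(A)) (Q.subgroupOf N_(A)) iso (by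
      have a1 := card_inf_mul_relIndex (QuotientGroup.mk' (A.subgroupOf N_(A))).ker (Q.subgroupOf N_(A))
      rw [relIndex_ker, QuotientGroup.ker_mk', show A.subgroupOf N_(A) ⊓ Q.subgroupOf N_(A) = (A ⊓ Q).subgroupOf N_(A) from rfl,
        Nat.card_congr (subgroupOfEquivOfLe (inf_le_right.trans QN)).toEquiv, Nat.card_congr (subgroupOfEquivOfLe QN).toEquiv,
        c.e3, ob.cB, s.card] at a1
      omega) (fun y o => by
        show (y : G) * y ∈ A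
        rw [← pow_two]
        rcases l.sq (show (y : G) ∈ Q from o) with w | w <;> rw [w]
        exacts [one_mem _, BA zB]) ⟨_, tN⟩ (by show a⁻¹ * t * a * (a⁻¹ * t * a) ∈ A; rw [s2]; exact one_mem _)
    have e3 : (g1 : G) * (a⁻¹ * t * a) * (g1 : G)⁻¹ = p1 * n1 := congrArg Subtype.val e2
    have pQ' : (p1 : G) ∈ Q := pQ
    have nA'' : (n1 : G) ∈ A := nA'
    obtain ⟨b, o⟩ := inY _ (mul_mem (l.le pQ') (Az nA'')) (e3 ▸ sq_conj s2 _) (by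
      rw [_root_.H26.JE.mul s _ (l.le pQ') _ (Az nA''), (s.ker _ (l.le pQ')).2 pQ', one_mul]; exact AY _ nA'')
    exact ⟨b * g1 * a⁻¹, by rwa [← e3, show b * ((g1 : G) * (a⁻¹ * t * a) * (g1 : G)⁻¹) * b⁻¹ =
      b * g1 * a⁻¹ * t * (b * g1 * a⁻¹)⁻¹ by group] at o⟩
  obtain ⟨t1, rfl⟩ : ∃ t1, t = g0⁻¹ * t1 * g0⁻¹⁻¹ := ⟨g0 * t * g0⁻¹, by group⟩
  rw [show g0 * (g0⁻¹ * t1 * g0⁻¹⁻¹) * g0⁻¹ = t1 by group] at tA
  have hV : IsElementaryAbelian 2 A := ⟨⟨⟨fun a b => Subtype.ext (eA.comm a.2 b.2)⟩⟩, fun y o => (pow_two y).trans (A2 y o)⟩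
  have mD : ∀ y ∈ A, y ≠ 1 → ¬ IsConj z y → y ∈ DD A N_(A) z := fun y i j k => ⟨i, j, fun ⟨m, _, o⟩ => k (isConj_iff.2 ⟨m, o⟩)⟩
  have d1 := mD t1 tA (by rintro rfl; simp at ht) fun o => hnc (o.trans (isConj_iff.2 ⟨_, rfl⟩))
  obtain ⟨-, t0, -, tA0, n0, -, nc0, -, -, l0⟩ := r8 A hV cA
  obtain ⟨m, mN, em⟩ := cf.trD t0 (mD t0 tA0 n0 nc0) t1 d1
  have l1 : C_[t1] ≤ N_(A) := fun y o => by
    rw [← em, ← cj_cent1] at o
    simpa [mul_assoc] using mul_mem (mul_mem mN (l0 (mem_cj.1 o))) (inv_mem mN)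
  obtain ⟨-, K0, k1, k2, k3, -⟩ := r7 A hV cA
  have lA : A ≤ C_[t1] := eA.cent tA
  have dec : ∀ y ∈ C_[t1], ∃ k ∈ K0 ⊓ C_[t1], ∃ a ∈ A, k * a = y := fun y o => by
    have : y ∈ ((K0 ⊔ A : Subgroup G) : Set G) := k3.ge (l1 o)
    rw [coe_mul_of_left_le_normalizer_right _ _ k1] at this
    obtain ⟨k, i, a, j, rfl⟩ := this
    exact ⟨k, ⟨i, (mul_mem_cancel_right (lA j)).1 o⟩, a, j, rfl⟩
  have b1 : K0 ⊓ C_[t1] ⊓ A = ⊥ := eq_bot_iff.2 (k2 ▸ inf_le_inf_right A inf_le_left)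
  have b2 : K0 ⊓ C_[t1] ⊔ A = C_[t1] := le_antisymm (sup_le inf_le_right lA) fun y o => by
    obtain ⟨k, i, a, j, rfl⟩ := dec y o
    exact mul_mem (mem_sup_left i) (mem_sup_right j)
  obtain ⟨n2, ⟨i2⟩⟩ := f2 t1 d1
  obtain ⟨au⟩ := Au
  have lK : K0 ⊓ C_[t1] ≤ N_(A) ⊓ C_[t1] := inf_le_inf_right _ k1
  have hc : IsComplement' ((K0 ⊓ C_[t1]).subgroupOf (N_(A) ⊓ C_[t1])) (A.subgroupOf (N_(A) ⊓ C_[t1])) :=
    isComplement'_of_disjoint_and_mul_eq_univ (disjoint_iff.2 (eq_bot_iff.2 fun y o =>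
      mem_bot.2 (Subtype.ext (mem_bot.1 (b1.le ⟨o.1, o.2⟩))))) (Set.eq_univ_of_forall fun y => by
      obtain ⟨k, i, a, j, w⟩ := dec y y.2.2
      exact ⟨⟨k, lK i⟩, i, ⟨a, l1 (lA j), lA j⟩, j, Subtype.ext w⟩)
  have e' := eA.cj g0⁻¹
  refine ⟨cj g0⁻¹ A, cj g0⁻¹ (K0 ⊓ C_[t1]), ?_, ?_, ?_, ⟨⟨⟨fun a b => Subtype.ext (e'.comm a.2 b.2)⟩⟩,
    fun y o => (pow_two y).trans (e' y o)⟩, (BG.card_cj _ _).trans cA, ?_, ?_, ⟨(cjEquiv g0⁻¹ _).symm.trans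
      ((subgroupOfEquivOfLe lK).symm.trans (hc.QuotientMulEquiv.symm.trans (i2.trans au)))⟩⟩
  · rw [← cj_cent1]; exact Subgroup.map_mono lA
  · rw [← cj_cent1]; exact Subgroup.map_mono inf_le_right
  · rw [← cj_cent1, ← cj_norm]; exact Subgroup.map_mono l1
  · rw [← cj_inf, b1]; exact Subgroup.map_bot _
  · rw [← cj_cent1]; nth_rw 2 [← b2]; exact (Subgroup.map_sup _ _ _).symm

end Cfsg.Agent.H23.Y
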